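import Cfsg.Agent.FusionAlt.Torus

/-!
The normalizer and the centralizer of the translation group.
-/

set_option autoImplicit false

namespace Cfsg.Agent.FusionAlt

open Equiv

variable {p : ℕ} [hp : Fact p.Prime] {I α : Type*} [Fintype I] [DecidableEq I] [Fintype α]
  [DecidableEq α] (e : I × ZMod p ↪ α)

omit [DecidableEq I] in
lemma eq_of_notMem_range (hr : Fintype.card α ≤ p * Fintype.card I + 1) {z w : α}
    (hz : z ∉ Set.range e) (hw : w ∉ Set.range e) : z = w := by
  classical
  have h := Finset.card_le_univ (Finset.univ \ (Finset.univ : Finset (I × ZMod p)).map e)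
  have hc : (Finset.univ \ (Finset.univ : Finset (I × ZMod p)).map e).card ≤ 1 := by
    rw [Finset.card_univ_diff, Finset.card_map, Finset.card_univ, Fintype.card_prod, ZMod.card]
    rw [mul_comm] at hr
    omega
  exact Finset.card_le_one.1 hc z (by simpa using fun a b h => hz ⟨(a, b), h⟩) w
    (by simpa using fun a b h => hw ⟨(a, b), h⟩)

omit [DecidableEq I] in
/-- A permutation mapping the blocks onto the blocks fixes the remaining point. -/
lemma apply_eq_of_notMem_range (hr : Fintype.card α ≤ p * Fintype.card I + 1) {g : Perm α}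
    (hg : ∀ y, ∃ x, g (e x) = e y) {z : α} (hz : z ∉ Set.range e) : g z = z := by
  refine eq_of_notMem_range e hr ?_ hz
  rintro ⟨y, hy⟩
  obtain ⟨x, hx⟩ := hg y
  exact hz ⟨x, g.injective (hx.trans hy)⟩

omit [DecidableEq α] in
/-- A permutation commuting with all translations is a translation. -/
lemma eq_shift_of_commute (hr : Fintype.card α ≤ p * Fintype.card I + 1) {c : Perm α}
    (hc : ∀ f, Commute c (shift e f)) : ∃ f, c = shift e f := by
  classical
  choose a ha using fun i => exists_translation_of_commute e (c := c) (i := i) fun b => hc _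
  refine ⟨a, perm_ext e (fun i x => by rw [ha, shift_apply]) fun z hz => ?_⟩
  rw [shift_out e _ hz]
  refine apply_eq_of_notMem_range e hr (fun y => ⟨(y.1, y.2 - a y.1), ?_⟩) hz
  rw [ha, add_sub_cancel]

/-- Elements normalizing the translations are products of a multiplication, a permutation of the blocks
and a translation. -/
lemma exists_decomp (hr : Fintype.card α ≤ p * Fintype.card I + 1) {g : Perm α}
    (hg : g ∈ Subgroup.normalizer (base e : Set (Perm α))) :
    ∃ (u : I → (ZMod p)ˣ) (σ : Perm I) (f : I → ZMod p),
      g = scal e u * blk e σ * shift e f := by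
  classical
  have h1 : ∀ j, ∃ (k : I) (u : (ZMod p)ˣ) (c : ZMod p),
      ∀ x, g (e (j, x)) = e (k, (u : ZMod p) * x + c) := by
    intro j
    obtain ⟨F, hF⟩ := (mem_base e).1 ((Subgroup.mem_normalizer_iff.1 hg _).1
      (shift_mem_base e (Pi.single j 1)))
    have hs : (Finset.univ.filter fun i => F i ≠ 0).card = 1 := by
      have := congrArg (fun x : Perm α => x.support.card) hF
      simp only [Perm.card_support_conj, card_support_shift'] at this
      have hp0 := hp.out.pos
      have h := Nat.eq_of_mul_eq_mul_right hp0 this
      rw [← h]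
      rw [show (Finset.univ.filter fun i => (Pi.single j (1 : ZMod p) : I → ZMod p) i ≠ 0) = {j} by
        ext i; by_cases hi : i = j <;> simp [hi], Finset.card_singleton]
    obtain ⟨k, hk⟩ := Finset.card_eq_one.1 hs
    have hFk : F = Pi.single k (F k) := funext fun i => by
      rcases eq_or_ne i k with rfl | hik
      · simp
      · rw [Pi.single_eq_of_ne hik]
        by_contra hne
        exact hik (Finset.mem_singleton.1 (hk ▸ Finset.mem_filter.2 ⟨Finset.mem_univ _, hne⟩))
    have hk0 : F k ≠ 0 :=
      (Finset.mem_filter.1 (hk ▸ Finset.mem_singleton_self k :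
        k ∈ Finset.univ.filter fun i => F i ≠ 0)).2
    have hga : ∀ v : α, g (shift e (Pi.single j 1) v) = shift e F (g v) := fun v => by
      rw [← hF]
      simp
    obtain ⟨c, hc⟩ : ∃ c, g (e (j, 0)) = e (k, c) := by
      have hne : shift e F (g (e (j, 0))) ≠ g (e (j, 0)) := by
        rw [← hga, shift_apply]
        intro h
        simpa using g.injective h
      by_cases hrg : g (e (j, 0)) ∈ Set.range e
      · obtain ⟨⟨i, x⟩, hix⟩ := hrg
        rcases eq_or_ne i k with rfl | hik
        · exact ⟨x, hix.symm⟩
        · refine absurd ?_ hne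
          rw [← hix, shift_apply, hFk]
          simp [hik]
      · exact absurd (shift_out e _ hrg) hne
    refine ⟨k, Units.mk0 (F k) hk0, c, fun x => ?_⟩
    have hn : ∀ n : ℕ, g (e (j, (n : ZMod p))) = e (k, F k * n + c) := fun n => by
      induction n with
      | zero => simp [hc]
      | succ n ih =>
        have := hga (e (j, (n : ZMod p)))
        rw [shift_apply, ih, shift_apply, Pi.single_eq_same] at this
        push_cast
        rw [add_comm (n : ZMod p) 1, this]
        congr 2
        ring
    have := hn x.val
    rwa [ZMod.natCast_zmod_val] at this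
  choose k u c hkuc using h1
  have hinj : Function.Injective k := by
    intro i j hij
    have hi := hkuc i (((u i)⁻¹ : (ZMod p)ˣ) * (c j - c i))
    have hj := hkuc j 0
    rw [Units.mul_inv_cancel_left, sub_add_cancel, hij] at hi
    rw [mul_zero, zero_add] at hj
    exact (congrArg Prod.fst (e.injective (g.injective (hi.trans hj.symm))))
  let σ : Perm I := Equiv.ofBijective k (Finite.injective_iff_bijective.1 hinj)
  refine ⟨fun i => u (σ.symm i), σ, fun j => ((u j)⁻¹ : (ZMod p)ˣ) * c j, perm_ext e ?_ ?_⟩
  · intro i x
    simp only [Perm.mul_apply, shift_apply, blk_apply, scal_apply, Equiv.symm_apply_apply]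
    rw [hkuc, mul_add, Units.mul_inv_cancel_left, add_comm]
    rfl
  · intro z hz
    rw [Perm.mul_apply, Perm.mul_apply, shift_out e _ hz, blk_out e _ hz, scal_out e _ hz]
    refine apply_eq_of_notMem_range e hr (fun y => ?_) hz
    refine ⟨(σ.symm y.1, ((u (σ.symm y.1))⁻¹ : (ZMod p)ˣ) * (y.2 - c (σ.symm y.1))), ?_⟩
    rw [hkuc, Units.mul_inv_cancel_left, sub_add_cancel,
      show k (σ.symm y.1) = y.1 from σ.apply_symm_apply y.1]

/-- An element of a lift moving exactly `p` points is a translation. -/
lemma mem_base_of_card_support {W' : Subgroup (Perm I)} {x : Perm α} (hx : x ∈ lift e W')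
    (hcard : x.support.card = p) : x ∈ base e := by
  classical
  obtain ⟨f, σ, -, rfl⟩ := hx
  by_cases hσ : σ = 1
  · rw [hσ, map_one, mul_one]
    exact shift_mem_base e f
  · exfalso
    obtain ⟨j, hj⟩ : ∃ j, σ j ≠ j := by
      by_contra h
      push Not at h
      exact hσ (Equiv.ext h)
    have hsub : (({j, σ j} : Finset I) ×ˢ (Finset.univ : Finset (ZMod p))).map e ⊆
        (shift e f * blk e σ).support := by
      intro v hv
      obtain ⟨⟨i, a⟩, hi, rfl⟩ := Finset.mem_map.1 hv
      simp only [Finset.mem_product, Finset.mem_insert, Finset.mem_singleton, Finset.mem_univ,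
        and_true] at hi
      rw [Perm.mem_support, Perm.mul_apply, blk_apply, shift_apply, Ne, e.apply_eq_iff_eq,
        Prod.mk.injEq, not_and]
      intro h
      rcases hi with rfl | rfl
      · exact absurd h hj
      · exact absurd (σ.injective h) hj
    have := Finset.card_le_card hsub
    rw [Finset.card_map, Finset.card_product, Finset.card_pair hj.symm, Finset.card_univ,
      ZMod.card, hcard] at this
    have := hp.out.pos
    omega

/-- For odd `p`, the normalizer of a lift normalizes the translations. -/
lemma normalizer_lift_le (W' : Subgroup (Perm I)) {g : Perm α}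
    (hg : g ∈ Subgroup.normalizer (lift e W' : Set (Perm α))) :
    g ∈ Subgroup.normalizer (base e : Set (Perm α)) := by
  refine mem_normalizer_of_conj_mem fun x hx => ?_
  obtain ⟨f, rfl⟩ := (mem_base e).1 hx
  rw [← Finset.univ_sum_single f]
  refine Finset.sum_induction _ (fun v => g * shift e v * g⁻¹ ∈ base e) (fun a b ha hb => ?_) ?_ ?_
  · rw [shift_add, ← conj_mul]
    exact mul_mem ha hb
  · simp only [shift_zero, mul_one, mul_inv_cancel]
    exact one_mem _
  · intro i _
    by_cases hi : f i = 0
    · rw [hi, Pi.single_zero, shift_zero, mul_one, mul_inv_cancel]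
      exact one_mem _
    refine mem_base_of_card_support e ((Subgroup.mem_normalizer_iff.1 hg _).1
      (shift_mem_lift (Pi.single i (f i)))) ?_
    rw [Perm.card_support_conj, card_support_shift',
      show (Finset.univ.filter fun k => (Pi.single i (f i) : I → ZMod p) k ≠ 0) = {i} by
        ext k; by_cases hk : k = i <;> simp [hk, hi], Finset.card_singleton, one_mul]

end Cfsg.Agent.FusionAlt
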