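import Mathlib

/-!
Permutations built from a family of blocks `e : I × A ↪ α`: fibrewise permutations, permutations of the
blocks, translations inside the blocks.
-/

set_option autoImplicit false

namespace Cfsg.Agent.FusionAlt

open Equiv

section Basic

variable {I A α : Type*} (e : I × A ↪ α)

/-- The permutation acting by `π i` on the block `i`. -/
noncomputable def fib (π : I → Perm A) : Perm α :=
  Perm.viaEmbeddingHom e (Equiv.prodCongrRight π)

/-- The permutation of the blocks given by `σ`. -/
noncomputable def blk : Perm I →* Perm α :=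
  (Perm.viaEmbeddingHom e).comp
    { toFun := fun σ => Equiv.prodCongr σ (Equiv.refl A)
      map_one' := rfl
      map_mul' := fun _ _ => rfl }

@[simp] lemma fib_apply (π : I → Perm A) (i : I) (a : A) : fib e π (e (i, a)) = e (i, π i a) := by
  rw [fib, Perm.viaEmbeddingHom_apply, Perm.viaEmbedding_apply]
  rfl

lemma fib_out (π : I → Perm A) {z : α} (hz : z ∉ Set.range e) : fib e π z = z := by
  rw [fib, Perm.viaEmbeddingHom_apply, Perm.viaEmbedding_apply_of_notMem _ _ _ hz]

@[simp] lemma blk_apply (σ : Perm I) (i : I) (a : A) : blk e σ (e (i, a)) = e (σ i, a) :=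
  (Perm.viaEmbedding_apply _ _ _)

lemma blk_out (σ : Perm I) {z : α} (hz : z ∉ Set.range e) : blk e σ z = z :=
  Perm.viaEmbedding_apply_of_notMem _ _ _ hz

lemma perm_ext {x y : Perm α} (h : ∀ i a, x (e (i, a)) = y (e (i, a)))
    (h' : ∀ z ∉ Set.range e, x z = y z) : x = y := by
  refine Equiv.ext fun z => ?_
  by_cases hz : z ∈ Set.range e
  · obtain ⟨⟨i, a⟩, rfl⟩ := hz
    exact h i a
  · exact h' z hz

lemma fib_mul (π π' : I → Perm A) : fib e π * fib e π' = fib e (fun i => π i * π' i) := by
  refine perm_ext e (fun i a => by simp) fun z hz => by simp [fib_out e _ hz]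

lemma fib_one : fib e (fun _ => (1 : Perm A)) = 1 :=
  perm_ext e (fun i a => by simp) fun z hz => by simp [fib_out e _ hz]

/-- Fibrewise permutations, as a homomorphism. -/
noncomputable def fibHom : (I → Perm A) →* Perm α where
  toFun := fib e
  map_one' := fib_one e
  map_mul' π π' := (fib_mul e π π').symm

@[simp] lemma fibHom_apply (π : I → Perm A) : fibHom e π = fib e π := rfl

lemma blk_mul_fib (σ : Perm I) (π : I → Perm A) :
    blk e σ * fib e π = fib e (π ∘ σ.symm) * blk e σ :=
  perm_ext e (fun i a => by simp) fun z hz => by simp [fib_out e _ hz, blk_out e _ hz]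

lemma fib_mul_blk (σ : Perm I) (π : I → Perm A) :
    fib e π * blk e σ = blk e σ * fib e (π ∘ σ) :=
  perm_ext e (fun i a => by simp) fun z hz => by simp [fib_out e _ hz, blk_out e _ hz]

lemma conj_fib_blk (g : Perm α) (π : I → Perm A) (σ : Perm I) :
    g * (fib e π * blk e σ) * g⁻¹ =
      fib (e.trans g.toEmbedding) π * blk (e.trans g.toEmbedding) σ := by
  refine perm_ext (e.trans g.toEmbedding) (fun i a => ?_) fun z hz => ?_
  · show g (fib e π (blk e σ (g⁻¹ (g (e (i, a)))))) =
      fib (e.trans g.toEmbedding) π (blk (e.trans g.toEmbedding) σ ((e.trans g.toEmbedding) (i, a)))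
    rw [blk_apply, fib_apply]
    simp [Function.Embedding.trans]
  · have hz' : g⁻¹ z ∉ Set.range e := fun ⟨w, hw⟩ => hz ⟨w, by simp [hw]⟩
    rw [Perm.mul_apply, Perm.mul_apply, Perm.mul_apply, Perm.mul_apply, blk_out e _ hz',
      fib_out e _ hz', blk_out _ _ hz, fib_out _ _ hz]
    simp

end Basic

section Shift

variable {I A α : Type*} [AddCommGroup A] (e : I × A ↪ α)

/-- Translation by `f i` on the block `i`. -/
noncomputable def shift (f : I → A) : Perm α := fib e (fun i => Equiv.addLeft (f i))

@[simp] lemma shift_apply (f : I → A) (i : I) (a : A) : shift e f (e (i, a)) = e (i, f i + a) := by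
  simp [shift]

lemma shift_out (f : I → A) {z : α} (hz : z ∉ Set.range e) : shift e f z = z := fib_out e _ hz

lemma shift_add (f f' : I → A) : shift e (f + f') = shift e f * shift e f' :=
  perm_ext e (fun i a => by simp [add_assoc]) fun z hz => by simp [shift_out e _ hz]

@[simp] lemma shift_zero : shift e (0 : I → A) = 1 :=
  perm_ext e (fun i a => by simp) fun z hz => by simp [shift_out e _ hz]

/-- Translations, as a homomorphism. -/
noncomputable def shiftHom : Multiplicative (I → A) →* Perm α where
  toFun f := shift e f.toAdd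
  map_one' := shift_zero e
  map_mul' f f' := shift_add e f.toAdd f'.toAdd

/-- The group of translations. -/
noncomputable def base : Subgroup (Perm α) := (shiftHom e).range

lemma mem_base {x : Perm α} : x ∈ base e ↔ ∃ f : I → A, x = shift e f :=
  ⟨fun ⟨f, hf⟩ => ⟨f.toAdd, hf.symm⟩, fun ⟨f, hf⟩ => ⟨Multiplicative.ofAdd f, hf.symm⟩⟩

lemma shift_mem_base (f : I → A) : shift e f ∈ base e := (mem_base e).2 ⟨f, rfl⟩

lemma shift_neg (f : I → A) : shift e (-f) = (shift e f)⁻¹ := by
  rw [eq_inv_iff_mul_eq_one, ← shift_add, neg_add_cancel, shift_zero]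

lemma shift_nsmul (k : ℕ) (f : I → A) : shift e (k • f) = shift e f ^ k :=
  map_pow (shiftHom e) (Multiplicative.ofAdd f) k

lemma shift_commute (f f' : I → A) : Commute (shift e f) (shift e f') := by
  rw [Commute, SemiconjBy, ← shift_add, ← shift_add, add_comm]

lemma shift_inj : Function.Injective (shift e) := fun f f' h => funext fun i => by
  simpa using congrArg Prod.snd (e.injective (((shift_apply e f i 0).symm.trans
    (congrArg (fun x : Perm α => x (e (i, 0))) h)).trans (shift_apply e f' i 0)))

lemma blk_mul_shift (σ : Perm I) (f : I → A) :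
    blk e σ * shift e f = shift e (f ∘ σ.symm) * blk e σ :=
  perm_ext e (fun i a => by simp) fun z hz => by simp [shift_out e _ hz, blk_out e _ hz]

lemma conj_shift (g : Perm α) (f : I → A) :
    g * shift e f * g⁻¹ = shift (e.trans g.toEmbedding) f := by
  simpa [shift] using conj_fib_blk e g (fun i => Equiv.addLeft (f i)) 1

lemma fib_mul_shift (π : I → A ≃+ A) (f : I → A) :
    fib e (fun i => (π i).toEquiv) * shift e f =
      shift e (fun i => π i (f i)) * fib e (fun i => (π i).toEquiv) :=
  perm_ext e (fun i a => by simp [map_add]) fun z hz => by simp [fib_out e _ hz, shift_out e _ hz]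

lemma shift_blk_inj {f f' : I → A} {σ σ' : Perm I}
    (h : shift e f * blk e σ = shift e f' * blk e σ') : f = f' ∧ σ = σ' := by
  have h1 : ∀ i, σ i = σ' i ∧ f (σ i) = f' (σ' i) := fun i => by
    simpa using congrArg (fun x : Perm α => x (e (i, 0))) h
  have hσ : σ = σ' := Equiv.ext fun i => (h1 i).1
  refine ⟨funext fun i => ?_, hσ⟩
  subst hσ
  simpa using (h1 (σ.symm i)).2

/-- If `c` commutes with the translations of the block `i` then it acts on it as a translation. -/
lemma exists_translation_of_commute [Nontrivial A] [DecidableEq I] {c : Perm α} {i : I}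
    (hc : ∀ a : A, Commute c (shift e (Pi.single i a))) :
    ∃ a₀, ∀ a, c (e (i, a)) = e (i, a₀ + a) := by
  obtain ⟨b, hb⟩ := exists_ne (0 : A)
  have hmove : shift e (Pi.single i b) (c (e (i, 0))) ≠ c (e (i, 0)) := by
    rw [← Perm.mul_apply, ← (hc b).eq, Perm.mul_apply, shift_apply]
    intro h
    exact hb (by simpa using congrArg Prod.snd (e.injective (c.injective h)))
  obtain ⟨a₀, ha₀⟩ : ∃ a₀, c (e (i, 0)) = e (i, a₀) := by
    by_cases hr : c (e (i, 0)) ∈ Set.range e
    · obtain ⟨⟨j, x⟩, hjx⟩ := hr
      by_cases hji : j = i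
      · exact ⟨x, by rw [← hjx, hji]⟩
      · exact absurd (by simp [← hjx, hji]) hmove
    · exact absurd (shift_out e _ hr) hmove
  refine ⟨a₀, fun a => ?_⟩
  calc c (e (i, a)) = (c * shift e (Pi.single i a)) (e (i, 0)) := by simp
    _ = (shift e (Pi.single i a) * c) (e (i, 0)) := by rw [(hc a).eq]
    _ = e (i, a₀ + a) := by simp [ha₀, add_comm]

end Shift

section Finite

variable {I A α : Type*} [Fintype I] [DecidableEq I] [Fintype A] [DecidableEq A] [Fintype α]
  [DecidableEq α] (e : I × A ↪ α)

lemma sign_fib (π : I → Perm A) : Perm.sign (fib e π) = ∏ i, Perm.sign (π i) := by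
  classical
  rw [fib, Perm.viaEmbeddingHom_apply, Perm.viaEmbedding, Perm.sign_extendDomain,
    Perm.sign_prodCongrRight]

lemma sign_blk (σ : Perm I) : Perm.sign (blk e σ) = Perm.sign σ ^ Fintype.card A := by
  classical
  show Perm.sign (Perm.viaEmbedding (Equiv.prodCongr σ (Equiv.refl A)) e) = _
  rw [Perm.viaEmbedding, Perm.sign_extendDomain,
    show Equiv.prodCongr σ (Equiv.refl A) = Equiv.prodCongrLeft (fun _ => σ) from
      Equiv.ext fun _ => rfl,
    Perm.sign_prodCongrLeft, Finset.prod_const, Finset.card_univ]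

variable [AddCommGroup A]

lemma card_support_shift (f : I → A) :
    (shift e f).support.card = (Finset.univ.filter fun i => f i ≠ 0).card * Fintype.card A := by
  have : (shift e f).support =
      ((Finset.univ.filter fun i => f i ≠ 0) ×ˢ (Finset.univ : Finset A)).map e := by
    ext z
    rw [Perm.mem_support, Finset.mem_map]
    constructor
    · intro hz
      by_cases hr : z ∈ Set.range e
      · obtain ⟨⟨i, a⟩, rfl⟩ := hr
        refine ⟨(i, a), ?_, rfl⟩
        simpa using hz
      · exact absurd (shift_out e f hr) hz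
    · rintro ⟨⟨i, a⟩, hia, rfl⟩
      simpa using hia
  rw [this, Finset.card_map, Finset.card_product, Finset.card_univ]

end Finite

end Cfsg.Agent.FusionAlt
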