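import Cfsg.Agent.FusionAlt.Sylow

/-!
A nontrivial strongly closed subgroup of a Sylow subgroup of an alternating group is the whole Sylow
subgroup.
-/

set_option autoImplicit false

namespace Cfsg.Agent.FusionAlt

open Equiv

variable {p : ℕ} [hp : Fact p.Prime]

section Pairs

variable {I : Type*} [Fintype I] [DecidableEq I]

lemma one_add_one_zmod_two : (1 : ZMod 2) + 1 = 0 := rfl

lemma filter_single (j : I) {a : ZMod p} (ha : a ≠ 0) :
    (Finset.univ.filter fun i => (Pi.single j a : I → ZMod p) i ≠ 0) = {j} := by
  ext i
  by_cases hi : i = j <;> simp [hi, ha]

lemma ind_univ_filter_two (f : I → ZMod 2) :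
    ind (Finset.univ.filter fun i => f i ≠ 0) = f := by
  funext i
  by_cases hi : f i = 0
  · simp [ind, hi]
  · have : f i = 1 := by
      revert hi
      generalize f i = a
      revert a
      decide
    simp [ind, this]

lemma ind_add_pair {a b : I} (K : Finset I) (ha : a ∈ K) (hb : b ∉ K) :
    ind (p := 2) K + ind {a, b} = ind (insert b (K.erase a)) := by
  have hab : a ≠ b := fun h => hb (h ▸ ha)
  funext i
  rcases eq_or_ne i a with rfl | hia
  · simp [ind, ha, hab]
    decide
  rcases eq_or_ne i b with rfl | hib
  · simp [ind, hb]
  · by_cases hi : i ∈ K <;> simp [ind, hi, hia, hib]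

end Pairs

section Closed

variable {m : ℕ} {α : Type*} [Fintype α] [DecidableEq α]

/-- A nontrivial strongly closed subgroup of the even part of a lift is the whole even part. -/
theorem lift_inf_le_of_closed (e : Fin m × ZMod p ↪ α) (W' : Sylow p (Perm (Fin m)))
    (hr : Fintype.card α < p * (m + 1)) (hm : 3 ≤ m) (T : Subgroup (Perm α))
    (hT : T ≤ lift e (W' : Subgroup (Perm (Fin m))) ⊓ alternatingGroup α) (hT1 : T ≠ ⊥)
    (hcl : ∀ g ∈ alternatingGroup α, ∀ t ∈ T,
      g * t * g⁻¹ ∈ lift e (W' : Subgroup (Perm (Fin m))) ⊓ alternatingGroup α → g * t * g⁻¹ ∈ T) :
    lift e (W' : Subgroup (Perm (Fin m))) ⊓ alternatingGroup α ≤ T := by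
  classical
  set L := lift e (W' : Subgroup (Perm (Fin m))) ⊓ alternatingGroup α with hL
  have hr' : Fintype.card α < p * (Fintype.card (Fin m) + 1) := by simpa using hr
  have hI : 3 ≤ Fintype.card (Fin m) := by simpa using hm
  have hmove : ∀ x ∈ T, ∀ y ∈ L, x ^ p = 1 → y ^ p = 1 → x.support.card = y.support.card →
      y ∈ T := by
    intro x hx y hy hxp hyp h
    obtain ⟨g, hg, rfl⟩ := exists_conj_mem_alternating hr' hI e hxp hyp h
    exact hcl g hg x hx hy
  have hsign : ∀ (x : Perm α) (f : Fin m → ZMod p), x ^ p = 1 →
      x.support.card = (shift e f).support.card → x ∈ alternatingGroup α →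
      shift e f ∈ L := by
    intro x f hxp h hx
    refine ⟨shift_mem_lift f, ?_⟩
    obtain ⟨c, hc⟩ := isConj_iff.1 (isConj_of_card_support hxp (shift_pow_prime e f) h)
    rw [← hc]
    exact alternatingGroup.normal.conj_mem x hx c
  -- Some translation lies in `T`.
  obtain ⟨z, hzT, hz1, hzp⟩ : ∃ z ∈ T, z ≠ 1 ∧ z ^ p = 1 := by
    have hTp : IsPGroup p T := (isPGroup_lift e W' hr').to_le (hT.trans inf_le_left)
    obtain ⟨k, hk⟩ := IsPGroup.iff_card.1 hTp
    have hk0 : k ≠ 0 := fun h => hT1 (Subgroup.eq_bot_of_card_eq _ (by rw [hk, h, pow_zero]))
    obtain ⟨z, hz⟩ := exists_prime_orderOf_dvd_card' (G := T) p (hk ▸ dvd_pow_self p hk0)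
    refine ⟨z, z.2, fun h => ?_, ?_⟩
    · rw [show z = 1 from Subtype.ext h, orderOf_one] at hz
      exact hp.out.ne_one hz.symm
    · exact congrArg Subtype.val (orderOf_dvd_iff_pow_eq_one.1 hz.dvd)
  obtain ⟨K, hK⟩ := exists_ind_card_support e hr' hzp
  have hKT : shift e (ind K) ∈ T :=
    hmove z hzT _ (hsign z _ hzp hK (hT hzT).2) hzp (shift_pow_prime e _) hK
  have hK0 : K.Nonempty := by
    rw [Finset.nonempty_iff_ne_empty]
    rintro rfl
    rw [card_support_ind, Finset.card_empty, zero_mul, Finset.card_eq_zero,
      Perm.support_eq_empty_iff] at hK
    exact hz1 hK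
  have hsame : ∀ f g : Fin m → ZMod p, shift e f ∈ T →
      (Finset.univ.filter fun i => f i ≠ 0).card = (Finset.univ.filter fun i => g i ≠ 0).card →
      shift e g ∈ T := by
    intro f g hf h
    have hs : (shift e f).support.card = (shift e g).support.card := by
      rw [card_support_shift', card_support_shift', h]
    exact hmove _ hf _ (hsign _ _ (shift_pow_prime e f) hs (hT hf).2) (shift_pow_prime e f)
      (shift_pow_prime e g) hs
  -- Every translation of the alternating group lies in `T`.
  have hall : ∀ f : Fin m → ZMod p, shift e f ∈ alternatingGroup α → shift e f ∈ T := by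
    by_cases hp2 : p = 2
    · subst hp2
      obtain ⟨a₀, b₀, hab₀, hpair⟩ : ∃ a b : Fin m, a ≠ b ∧ shift e (ind {a, b}) ∈ T := by
        by_cases hKm : K = Finset.univ
        · obtain ⟨a, c, hac, hτ⟩ := exists_swap_mem (by omega : 2 ≤ Fintype.card (Fin m)) W'
          set g : Fin m → ZMod 2 := ind ({a, c} : Finset (Fin m))ᶜ with hg
          have hcomm : g ∘ (Equiv.swap a c).symm = g := by
            funext i
            simp only [hg, ind, Function.comp_apply, Equiv.symm_swap, Finset.mem_compl,
              Finset.mem_insert, Finset.mem_singleton]
            rcases eq_or_ne i a with rfl | hia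
            · simp
            rcases eq_or_ne i c with rfl | hic
            · simp
            rw [Equiv.swap_apply_of_ne_of_ne hia hic]
          set y := blk e (Equiv.swap a c) * shift e g with hy
          have hyc : Commute (blk e (Equiv.swap a c)) (shift e g) := by
            rw [Commute, SemiconjBy, blk_mul_shift, hcomm]
          have hy2 : y ^ 2 = 1 := by
            rw [hyc.mul_pow, shift_pow_prime, mul_one, ← map_pow, pow_two, Equiv.swap_mul_self,
              map_one]
          have hys : y.support.card = (shift e (ind K)).support.card := by
            have : y.support = Finset.univ.map e := by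
              ext v
              simp only [Perm.mem_support, Finset.mem_map, Finset.mem_univ, true_and]
              constructor
              · intro hv
                by_cases hvr : v ∈ Set.range e
                · exact hvr
                · exact absurd (by rw [hy, Perm.mul_apply, shift_out e _ hvr, blk_out e _ hvr]) hv
              · rintro ⟨⟨i, x⟩, rfl⟩
                rw [hy, Perm.mul_apply, shift_apply, blk_apply, Ne, e.apply_eq_iff_eq, Prod.mk.injEq,
                  not_and]
                intro hi
                have : g i = 1 := by
                  have hi' : i ≠ a ∧ i ≠ c := by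
                    constructor
                    · rintro rfl
                      rw [Equiv.swap_apply_left] at hi
                      exact hac hi.symm
                    · rintro rfl
                      rw [Equiv.swap_apply_right] at hi
                      exact hac hi
                  simp [hg, ind, hi'.1, hi'.2]
                rw [this]
                simp
            rw [this, Finset.card_map, card_support_ind, hKm]
            simp
          have hyT : y ∈ T := by
            refine hmove _ hKT y ⟨mul_mem (blk_mem_lift hτ) (shift_mem_lift g), ?_⟩
              (shift_pow_prime e _) hy2 hys.symm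
            obtain ⟨d, hd⟩ := isConj_iff.1
              (isConj_of_card_support (shift_pow_prime e (ind K)) hy2 hys.symm)
            rw [← hd]
            exact alternatingGroup.normal.conj_mem _ (hT hKT).2 d
          set w := y * shift e (ind K) with hw
          have hwT : w ∈ T := mul_mem hyT hKT
          have hwe : w = blk e (Equiv.swap a c) * shift e (ind {a, c}) := by
            rw [hw, hy, mul_assoc, ← shift_add]
            congr 2
            funext i
            by_cases hi : i ∈ ({a, c} : Finset (Fin m))
            · simp only [hg, hKm, ind, Pi.add_apply, Finset.mem_compl, hi, not_true, if_false,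
                Finset.mem_univ, if_true, zero_add]
            · simp only [hg, hKm, ind, Pi.add_apply, Finset.mem_compl, hi, not_false_eq_true,
                if_true, Finset.mem_univ, if_false, one_add_one_zmod_two]
          have hw2 : w ^ 2 = 1 := by
            have hc2 : Commute (blk e (Equiv.swap a c)) (shift e (ind {a, c})) := by
              rw [Commute, SemiconjBy, blk_mul_shift]
              congr 2
              funext i
              simp only [ind, Function.comp_apply, Equiv.symm_swap, Finset.mem_insert,
                Finset.mem_singleton]
              rcases eq_or_ne i a with rfl | hia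
              · simp
              rcases eq_or_ne i c with rfl | hic
              · simp
              rw [Equiv.swap_apply_of_ne_of_ne hia hic]
            rw [hwe, hc2.mul_pow, shift_pow_prime, mul_one, ← map_pow, pow_two,
              Equiv.swap_mul_self, map_one]
          have hw1 : w ≠ 1 := by
            intro h
            have := congrArg (fun v : Perm α => v (e (a, 0))) h
            simp [hwe] at this
            exact hac this.1.symm
          have hwle : w.support.card ≤ 4 := by
            refine (Finset.card_le_card (t := (({a, c} : Finset (Fin m)) ×ˢ
              (Finset.univ : Finset (ZMod 2))).map e) ?_).trans_eq ?_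
            · intro v hv
              rw [Perm.mem_support] at hv
              rw [Finset.mem_map]
              by_cases hvr : v ∈ Set.range e
              · obtain ⟨⟨i, x⟩, rfl⟩ := hvr
                refine ⟨(i, x), ?_, rfl⟩
                by_contra hi
                simp only [Finset.mem_product, Finset.mem_univ, and_true, Finset.mem_insert,
                  Finset.mem_singleton, not_or] at hi
                apply hv
                rw [hwe, Perm.mul_apply, shift_apply, blk_apply,
                  Equiv.swap_apply_of_ne_of_ne hi.1 hi.2]
                simp [ind, hi.1, hi.2]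
              · exact absurd (by rw [hwe, Perm.mul_apply, shift_out e _ hvr, blk_out e _ hvr]) hv
            · simp [Finset.card_pair hac]
          obtain ⟨K', hK'⟩ := exists_ind_card_support e hr' hw2
          have hs' : shift e (ind K') ∈ L := hsign w _ hw2 hK' (hT hwT).2
          have hK'2 : K'.card = 2 := by
            have h1 := Perm.mem_alternatingGroup.1 hs'.2
            rw [sign_shift_two, filter_ind] at h1
            have hc : w.support.card = K'.card * 2 := hK'.trans (card_support_ind e K')
            have hne : w.support.card ≠ 0 := by simpa using hw1
            have : K'.card = 1 ∨ K'.card = 2 := by omega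
            rcases this with h2 | h2
            · rw [h2] at h1
              exact absurd h1 (by decide)
            · exact h2
          obtain ⟨a', b', hab', rfl⟩ := Finset.card_eq_two.1 hK'2
          exact ⟨a', b', hab', hmove w hwT _ hs' hw2 (shift_pow_prime e _) hK'⟩
        · obtain ⟨a, ha⟩ := hK0
          obtain ⟨b, hb⟩ : ∃ b, b ∉ K := by
            by_contra hc
            push Not at hc
            exact hKm (Finset.eq_univ_iff_forall.2 hc)
          refine ⟨a, b, fun h => hb (h ▸ ha), ?_⟩
          have h1 : shift e (ind (insert b (K.erase a))) ∈ T := by
            refine hsame _ _ hKT ?_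
            rw [filter_ind, filter_ind, Finset.card_insert_of_notMem (by simp [hb]),
              Finset.card_erase_of_mem ha]
            have := Finset.card_pos.2 ⟨a, ha⟩
            omega
          rw [← ind_add_pair K ha hb, shift_add] at h1
          simpa [← mul_assoc] using mul_mem (inv_mem hKT) h1
      intro f hf
      have heven : Even (Finset.univ.filter fun i => f i ≠ 0).card := by
        rw [Perm.mem_alternatingGroup, sign_shift_two] at hf
        exact (neg_one_pow_eq_one_iff_even (by decide)).1 hf
      have key : ∀ i, shift e ((Pi.single i 1 : Fin m → ZMod 2) + Pi.single a₀ 1) ∈ T := by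
        intro i
        rcases eq_or_ne i a₀ with rfl | hi
        · rw [← Pi.single_add, show (1 : ZMod 2) + 1 = 0 from one_add_one_zmod_two, Pi.single_zero, shift_zero]
          exact one_mem _
        · refine hsame _ _ hpair ?_
          rw [filter_ind, Finset.card_pair hab₀]
          refine (Finset.card_pair hi).symm.trans ?_
          congr 1
          ext j
          simp only [Finset.mem_insert, Finset.mem_singleton, Finset.mem_filter, Finset.mem_univ,
            true_and, Pi.add_apply]
          rcases eq_or_ne j i with rfl | hji
          · simp [hi]
          rcases eq_or_ne j a₀ with rfl | hja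
          · simp [hji]
          · simp [hji, hja]
      have hsum : f = ∑ i ∈ Finset.univ.filter (fun i => f i ≠ 0),
          ((Pi.single i 1 : Fin m → ZMod 2) + Pi.single a₀ 1) := by
        rw [Finset.sum_add_distrib, Finset.sum_const]
        obtain ⟨k, hk⟩ := heven
        rw [hk, show (k + k) • (Pi.single a₀ 1 : Fin m → ZMod 2) = 0 by
          rw [← two_mul, mul_nsmul, ← Pi.single_smul, show (2 : ℕ) • (1 : ZMod 2) = 0 from (two_nsmul _).trans one_add_one_zmod_two,
            Pi.single_zero, nsmul_zero], add_zero]
        conv_lhs => rw [← ind_univ_filter_two f]
        funext j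
        rw [Finset.sum_apply, Finset.sum_pi_single]
        rfl
      rw [hsum]
      let TT : AddSubgroup (Fin m → ZMod 2) :=
        { carrier := {g | shift e g ∈ T}
          add_mem' := fun {g g'} (hg : shift e g ∈ T) (hg' : shift e g' ∈ T) => by
            show shift e (g + g') ∈ T
            rw [shift_add]; exact mul_mem hg hg'
          zero_mem' := by show shift e 0 ∈ T; rw [shift_zero]; exact one_mem _
          neg_mem' := fun {g} (hg : shift e g ∈ T) => by
            show shift e (-g) ∈ T
            rw [shift_neg]; exact inv_mem hg }
      exact TT.sum_mem fun i _ => key i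
    · intro f _
      obtain ⟨j, hj⟩ := hK0
      have h2 : (2 : ZMod p) ≠ 0 := by
        rw [show (2 : ZMod p) = ((2 : ℕ) : ZMod p) by norm_num, Ne, ZMod.natCast_eq_zero_iff]
        intro h
        exact hp2 ((Nat.prime_dvd_prime_iff_eq hp.out Nat.prime_two).1 h)
      have h1 : shift e (ind K + Pi.single j 1) ∈ T := by
        refine hsame _ _ hKT (congrArg Finset.card ?_)
        ext i
        rcases eq_or_ne i j with rfl | hij
        · rw [Finset.mem_filter, Finset.mem_filter]
          simp [ind, hj, one_add_one_eq_two, h2]
        · simp [hij]
      rw [shift_add] at h1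
      have hsingle : shift e (Pi.single j 1) ∈ T := by
        simpa [← mul_assoc] using mul_mem (inv_mem hKT) h1
      let TT : AddSubgroup (Fin m → ZMod p) :=
        { carrier := {g | shift e g ∈ T}
          add_mem' := fun {g g'} (hg : shift e g ∈ T) (hg' : shift e g' ∈ T) => by
            show shift e (g + g') ∈ T
            rw [shift_add]; exact mul_mem hg hg'
          zero_mem' := by show shift e 0 ∈ T; rw [shift_zero]; exact one_mem _
          neg_mem' := fun {g} (hg : shift e g ∈ T) => by
            show shift e (-g) ∈ T
            rw [shift_neg]; exact inv_mem hg }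
      show f ∈ TT
      rw [← Finset.univ_sum_single f]
      refine TT.sum_mem fun i _ => ?_
      by_cases hi : f i = 0
      · rw [hi, Pi.single_zero]
        exact zero_mem _
      · refine hsame _ _ hsingle ?_
        rw [filter_single j one_ne_zero, filter_single i hi, Finset.card_singleton,
          Finset.card_singleton]
  refine (lift_inf_alternating_le_closure e W').trans ((Subgroup.closure_le _).2 ?_)
  rintro x ⟨hx, hxp⟩
  obtain ⟨K', hK'⟩ := exists_ind_card_support e hr' hxp
  exact hmove _ (hall _ (hsign x _ hxp hK' hx.2).2) x hx (shift_pow_prime e _) hxp hK'.symm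

end Closed

end Cfsg.Agent.FusionAlt
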