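import Cfsg.Agent.FusionAlt.Wreath

/-!
Elements of order `p` in alternating groups: conjugacy is decided by the number of moved points.
-/

set_option autoImplicit false

namespace Cfsg.Agent.FusionAlt

open Equiv

variable {p : ℕ} [hp : Fact p.Prime] {I α : Type*} [Fintype I] [DecidableEq I] [Fintype α]
  [DecidableEq α] (e : I × ZMod p ↪ α)

omit [Fintype I] [DecidableEq I] [Fintype α] [DecidableEq α] in
lemma shift_pow_prime (f : I → ZMod p) : shift e f ^ p = 1 := by
  rw [← shift_nsmul, show p • f = 0 from funext fun i => by simp, shift_zero]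

omit [DecidableEq I] in
lemma card_support_shift' (f : I → ZMod p) :
    (shift e f).support.card = (Finset.univ.filter fun i => f i ≠ 0).card * p := by
  classical
  rw [card_support_shift, ZMod.card]

omit [Fintype I] [DecidableEq I] in
lemma sign_pow_prime_eq_one (hp2 : p ≠ 2) {x : Perm α} (hx : x ^ p = 1) : Perm.sign x = 1 := by
  have h := congrArg Perm.sign hx
  rw [map_pow, map_one] at h
  obtain ⟨k, hk⟩ := hp.out.odd_of_ne_two hp2
  rwa [hk, pow_succ, pow_mul, Int.units_sq, one_pow, one_mul] at h

lemma sign_addLeft_two {a : ZMod 2} (ha : a ≠ 0) : Perm.sign (Equiv.addLeft a) = -1 := by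
  revert ha
  revert a
  decide

lemma sign_shift_two {e : I × ZMod 2 ↪ α} (f : I → ZMod 2) :
    Perm.sign (shift e f) = (-1) ^ (Finset.univ.filter fun i => f i ≠ 0).card := by
  classical
  rw [shift, sign_fib, ← Finset.prod_const, Finset.prod_filter]
  refine Finset.prod_congr rfl fun i _ => ?_
  by_cases hi : f i = 0
  · rw [if_neg (not_not.2 hi), hi, Equiv.addLeft_zero]
    exact map_one _
  · rw [if_pos hi, sign_addLeft_two hi]

omit [Fintype I] [DecidableEq I] in
lemma isConj_of_card_support {x y : Perm α} (hx : x ^ p = 1) (hy : y ^ p = 1)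
    (h : x.support.card = y.support.card) : IsConj x y := by
  rw [Perm.isConj_iff_cycleType_eq]
  have hx' := Perm.cycleType_of_pow_prime_eq_one hx
  have hy' := Perm.cycleType_of_pow_prime_eq_one hy
  rw [← Perm.sum_cycleType, ← Perm.sum_cycleType, hx', hy', Multiset.sum_replicate,
    Multiset.sum_replicate, smul_eq_mul, smul_eq_mul] at h
  rw [hx', hy', Nat.eq_of_mul_eq_mul_right hp.out.pos h]

/-- The indicator of a set of blocks. -/
def ind (K : Finset I) : I → ZMod p := fun i => if i ∈ K then 1 else 0

lemma filter_ind (K : Finset I) : (Finset.univ.filter fun i => ind (p := p) K i ≠ 0) = K := by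
  ext i
  by_cases hi : i ∈ K <;> simp [ind, hi]

lemma card_support_ind (K : Finset I) : (shift e (ind K)).support.card = K.card * p := by
  rw [card_support_shift', filter_ind]

/-- Every element of order `p` moves as many points as some indicator translation. -/
lemma exists_ind_card_support (hr : Fintype.card α < p * (Fintype.card I + 1)) {x : Perm α}
    (hx : x ^ p = 1) : ∃ K : Finset I, x.support.card = (shift e (ind K)).support.card := by
  have h := Perm.cycleType_of_pow_prime_eq_one hx
  have hc : x.support.card = x.cycleType.card * p := by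
    rw [← Perm.sum_cycleType, h, Multiset.sum_replicate, smul_eq_mul, Multiset.card_replicate]
  have hle : x.cycleType.card ≤ (Finset.univ : Finset I).card := by
    rw [Finset.card_univ]
    refine Nat.lt_succ_iff.1 (Nat.lt_of_mul_lt_mul_left (a := p) ?_)
    calc p * x.cycleType.card = x.support.card := by rw [hc, mul_comm]
      _ ≤ Fintype.card α := Finset.card_le_univ _
      _ < _ := hr
  obtain ⟨K, -, hK⟩ := Finset.exists_subset_card_eq hle
  exact ⟨K, by rw [card_support_ind, hK, hc]⟩

/-- An odd permutation centralizing an indicator translation. -/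
lemma exists_odd_commute (hI : 3 ≤ Fintype.card I) (K : Finset I) :
    ∃ d : Perm α, Perm.sign d = -1 ∧ Commute d (shift e (ind K)) := by
  classical
  by_cases hp2 : p = 2
  · subst hp2
    obtain ⟨j⟩ : Nonempty I := Fintype.card_pos_iff.1 (by omega)
    refine ⟨shift e (Pi.single j 1), ?_, shift_commute e _ _⟩
    rw [sign_shift_two]
    have : (Finset.univ.filter fun i => (Pi.single j (1 : ZMod 2) : I → ZMod 2) i ≠ 0) = {j} := by
      ext i
      by_cases hi : i = j <;> simp [hi]
    rw [this, Finset.card_singleton, pow_one]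
  · obtain ⟨a, b, hab, hK⟩ : ∃ a b, a ≠ b ∧ (a ∈ K ↔ b ∈ K) := by
      by_cases h2 : 1 < K.card
      · obtain ⟨a, ha, b, hb, hab⟩ := Finset.one_lt_card.1 h2
        exact ⟨a, b, hab, iff_of_true ha hb⟩
      · have : 1 < Kᶜ.card := by rw [Finset.card_compl]; omega
        obtain ⟨a, ha, b, hb, hab⟩ := Finset.one_lt_card.1 this
        exact ⟨a, b, hab, iff_of_false (Finset.mem_compl.1 ha) (Finset.mem_compl.1 hb)⟩
    refine ⟨blk e (Equiv.swap a b), ?_, ?_⟩
    · rw [sign_blk, Perm.sign_swap hab, ZMod.card, (hp.out.odd_of_ne_two hp2).neg_one_pow]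
    · rw [Commute, SemiconjBy, blk_mul_shift]
      congr 2
      funext i
      simp only [ind, Function.comp_apply, Equiv.symm_swap]
      rcases eq_or_ne i a with rfl | hia
      · rw [Equiv.swap_apply_left]
        exact if_congr hK.symm rfl rfl
      rcases eq_or_ne i b with rfl | hib
      · rw [Equiv.swap_apply_right]
        exact if_congr hK rfl rfl
      rw [Equiv.swap_apply_of_ne_of_ne hia hib]

/-- Elements of order `p` of the alternating group with as many moved points are conjugate in it. -/
lemma exists_conj_mem_alternating (hr : Fintype.card α < p * (Fintype.card I + 1))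
    (hI : 3 ≤ Fintype.card I) (e₀ : I × ZMod p ↪ α) {x y : Perm α} (hx : x ^ p = 1) (hy : y ^ p = 1)
    (h : x.support.card = y.support.card) :
    ∃ g ∈ alternatingGroup α, g * x * g⁻¹ = y := by
  classical
  obtain ⟨c, hc⟩ := isConj_iff.1 (isConj_of_card_support hx hy h)
  obtain ⟨K, hK⟩ := exists_ind_card_support e₀ hr hy
  obtain ⟨c', hc'⟩ := isConj_iff.1 (isConj_of_card_support (shift_pow_prime e₀ (ind K)) hy hK.symm)
  obtain ⟨d, hd, hdc⟩ := exists_odd_commute e₀ hI K
  rcases Int.units_eq_one_or (Perm.sign c) with hs | hs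
  · exact ⟨c, Perm.mem_alternatingGroup.2 hs, hc⟩
  · refine ⟨c' * d * c'⁻¹ * c, ?_, ?_⟩
    · rw [Perm.mem_alternatingGroup]
      simp [hd, hs, mul_comm (Perm.sign c') _]
    · calc c' * d * c'⁻¹ * c * x * (c' * d * c'⁻¹ * c)⁻¹
          = c' * d * c'⁻¹ * (c * x * c⁻¹) * c' * d⁻¹ * c'⁻¹ := by group
        _ = c' * d * c'⁻¹ * (c' * shift e₀ (ind K) * c'⁻¹) * c' * d⁻¹ * c'⁻¹ := by rw [hc, hc']
        _ = c' * (d * shift e₀ (ind K)) * d⁻¹ * c'⁻¹ := by group
        _ = c' * (shift e₀ (ind K) * d) * d⁻¹ * c'⁻¹ := by rw [hdc.eq]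
        _ = y := by rw [← hc']; group

end Cfsg.Agent.FusionAlt
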