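import Cfsg.Agent.FusionAlt.BaseNormalizer

/-!
Two levels of blocks: a torus element of prescribed product lying in the subgroup generated by the
elements of order `p` of the normalizer of a centric abelian subgroup made of regular pieces.
-/

set_option autoImplicit false

namespace Cfsg.Agent.FusionAlt

open Equiv

section Plane

variable {p : ℕ} [hp : Fact p.Prime]

/-- `(i, x) ↦ (i + a x, x)`. -/
def lowerT (a : ZMod p) : (ZMod p × ZMod p) ≃+ (ZMod p × ZMod p) where
  toFun v := (v.1 + a * v.2, v.2)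
  invFun v := (v.1 - a * v.2, v.2)
  left_inv v := by simp
  right_inv v := by simp
  map_add' v w := by ext <;> simp [mul_add]; ring

/-- `(i, x) ↦ (i, x + a i)`. -/
def upperT (a : ZMod p) : (ZMod p × ZMod p) ≃+ (ZMod p × ZMod p) where
  toFun v := (v.1, v.2 + a * v.1)
  invFun v := (v.1, v.2 - a * v.1)
  left_inv v := by simp
  right_inv v := by simp
  map_add' v w := by ext <;> simp [mul_add]; ring

/-- The composite with diagonal matrix `(t, t⁻¹)`. -/
lemma transvections_apply (t : (ZMod p)ˣ) (i x : ZMod p) :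
    lowerT (t : ZMod p) (upperT (-(t⁻¹ : (ZMod p)ˣ) : ZMod p) (lowerT (t : ZMod p)
      (lowerT (-1) (upperT 1 (lowerT (-1) (i, x)))))) =
    ((t : ZMod p) * i, ((t⁻¹ : (ZMod p)ˣ) : ZMod p) * x) := by
  have h : ((t⁻¹ : (ZMod p)ˣ) : ZMod p) * (t : ZMod p) = 1 := Units.inv_mul t
  ext
  · simp only [lowerT, upperT, AddEquiv.coe_mk, Equiv.coe_fn_mk]
    linear_combination (x - i * t) * h
  · simp only [lowerT, upperT, AddEquiv.coe_mk, Equiv.coe_fn_mk]
    linear_combination (-i) * h

end Plane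

section Super

variable {p : ℕ} [hp : Fact p.Prime] {I α : Type*} [Fintype α] (e : I × ZMod p ↪ α)

lemma scal_mem_normalizer_lift {W' : Subgroup (Perm I)} {u : I → (ZMod p)ˣ}
    (hu : ∀ σ ∈ W', ∀ i, u (σ i) = u i) :
    scal e u ∈ Subgroup.normalizer (lift e W' : Set (Perm α)) := by
  refine mem_normalizer_of_conj_mem ?_
  rintro _ ⟨f, σ, hσ, rfl⟩
  have h : scal e u * blk e σ = blk e σ * scal e u := by
    rw [blk_mul_scal, show u ∘ σ.symm = u from funext fun i => hu σ⁻¹ (inv_mem hσ) i]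
  exact ⟨fun i => (u i : ZMod p) * f i, σ, hσ, by
    rw [← mul_assoc, scal_mul_shift, mul_assoc (shift e _), h, ← mul_assoc, mul_inv_cancel_right]⟩

lemma blk_mem_normalizer_lift {W' : Subgroup (Perm I)} {τ : Perm I}
    (hτ : τ ∈ Subgroup.normalizer (W' : Set (Perm I))) :
    blk e τ ∈ Subgroup.normalizer (lift e W' : Set (Perm α)) := by
  refine mem_normalizer_of_conj_mem ?_
  rintro _ ⟨f, σ, hσ, rfl⟩
  exact ⟨f ∘ τ.symm, τ * σ * τ⁻¹, (Subgroup.mem_normalizer_iff.1 hτ σ).1 hσ, by
    rw [← mul_assoc, blk_mul_shift, map_mul, map_mul, map_inv]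
    simp only [mul_assoc]⟩

variable {K : Type*} [DecidableEq K] [DecidableEq α] [Fintype I] [DecidableEq I]

/-- For every unit `ζ` there is a torus element of product `ζ` normalizing a two-level lift and lying
in the subgroup generated by the elements of order `p` of the normalizer of a subgroup of the lift
that contains its centralizer. -/
theorem exists_torus_element (hp2 : p ≠ 2) (hr : Fintype.card α ≤ p * Fintype.card I + 1)
    (e' : K × ZMod p ↪ I) (W'' : Subgroup (Perm K)) (J : Finset K)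
    (hJ : ∀ σ ∈ W'', ∀ s ∈ J, σ s ∈ J) {k : ℕ} (hk : J.card = p ^ k) (ζ : (ZMod p)ˣ) :
    ∃ (u : I → (ZMod p)ˣ) (σ : Perm I), ∏ i, u i = ζ ∧
      scal e u * blk e σ ∈ Subgroup.normalizer (lift e (lift e' W'') : Set (Perm α)) ∧
      ∃ R : Subgroup (Perm α), R ≤ lift e (lift e' W'') ∧
        (∀ c : Perm α, (∀ r ∈ R, r * c = c * r) → c ∈ R) ∧
        scal e u * blk e σ ∈ pGen p R := by
  classical
  set Js : Finset I := (J ×ˢ (Finset.univ : Finset (ZMod p))).map e' with hJs
  set u : I → (ZMod p)ˣ := fun i => if i ∈ Js then ζ else 1 with hu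
  set v : K → (ZMod p)ˣ := fun s => if s ∈ J then ζ⁻¹ else 1 with hv
  have hmemJs : ∀ s i, e' (s, i) ∈ Js ↔ s ∈ J := fun s i => by simp [hJs]
  have hinvJs : ∀ w ∈ lift e' W'', ∀ j ∈ Js, w j ∈ Js := by
    rintro _ ⟨f, τ, hτ, rfl⟩ j hj
    obtain ⟨⟨s, i⟩, hsi, rfl⟩ := Finset.mem_map.1 hj
    rw [Perm.mul_apply, blk_apply, shift_apply, hmemJs]
    exact hJ τ hτ s (Finset.mem_product.1 hsi).1
  have huinv : ∀ w ∈ lift e' W'', ∀ j, u (w j) = u j := by
    intro w hw j
    refine if_congr ⟨fun h => ?_, hinvJs w hw j⟩ rfl rfl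
    simpa using hinvJs _ (inv_mem hw) _ h
  have hvinv : ∀ τ ∈ W'', ∀ s, v (τ s) = v s := by
    intro τ hτ s
    refine if_congr ⟨fun h => ?_, hJ τ hτ s⟩ rfl rfl
    simpa using hJ _ (inv_mem hτ) _ h
  have hprod : ∏ i, u i = ζ := by
    rw [hu, Finset.prod_ite_mem, Finset.univ_inter, Finset.prod_const, hJs, Finset.card_map,
      Finset.card_product, Finset.card_univ, ZMod.card, hk, ← pow_succ]
    have hζ : ζ ^ p = ζ := by
      obtain ⟨d, hd⟩ : ∃ d, d + 1 = p := ⟨p - 1, Nat.sub_add_cancel hp.out.one_le⟩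
      have h1 : ζ ^ d = 1 := by
        rw [show d = p - 1 by omega]
        exact ZMod.units_pow_card_sub_one_eq_one p ζ
      calc ζ ^ p = ζ ^ (d + 1) := congrArg (ζ ^ ·) hd.symm
        _ = ζ := by rw [pow_succ, h1, one_mul]
    generalize k + 1 = n
    induction n with
    | zero => rw [pow_zero, pow_one]
    | succ n ih => rw [pow_succ, pow_mul, ih, hζ]
  refine ⟨u, scal e' v, hprod, mul_mem (scal_mem_normalizer_lift e huinv)
    (blk_mem_normalizer_lift e (scal_mem_normalizer_lift e' hvinv)), ?_⟩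
  -- the two families of pieces
  let e2 : J × (ZMod p × ZMod p) ↪ α :=
    ⟨fun q => e (e' ((q.1 : K), q.2.1), q.2.2), by
      rintro ⟨s, a, b⟩ ⟨s', a', b'⟩ h
      simp only [EmbeddingLike.apply_eq_iff_eq, Prod.mk.injEq] at h
      exact Prod.ext (Subtype.ext h.1.1) (Prod.ext h.1.2 h.2)⟩
  let e3 : {j : I // j ∉ Js} × ZMod p ↪ α :=
    ⟨fun q => e ((q.1 : I), q.2), by
      rintro ⟨j, a⟩ ⟨j', a'⟩ h
      simp only [EmbeddingLike.apply_eq_iff_eq, Prod.mk.injEq] at h
      exact Prod.ext (Subtype.ext h.1) h.2⟩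
  have he2 : ∀ (s : J) (q : ZMod p × ZMod p), e2 (s, q) = e (e' ((s : K), q.1), q.2) :=
    fun _ _ => rfl
  have he3 : ∀ (j : {j : I // j ∉ Js}) (a : ZMod p), e3 (j, a) = e ((j : I), a) := fun _ _ => rfl
  have h23 : ∀ j a, e3 (j, a) ∉ Set.range e2 := by
    rintro j a ⟨⟨s, q⟩, h⟩
    rw [he2, he3, EmbeddingLike.apply_eq_iff_eq, Prod.mk.injEq] at h
    exact j.2 (h.1 ▸ (hmemJs _ _).2 s.2)
  have h32 : ∀ s q, e2 (s, q) ∉ Set.range e3 := by
    rintro s q ⟨⟨j, a⟩, h⟩
    exact h23 j a ⟨(s, q), h.symm⟩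
  have hcov : ∀ y, (∃ x, e2 x = e y) ∨ ∃ x, e3 x = e y := by
    rintro ⟨j, a⟩
    by_cases hj : j ∈ Js
    · obtain ⟨⟨s, i⟩, hsi, rfl⟩ := Finset.mem_map.1 hj
      exact Or.inl ⟨(⟨s, (Finset.mem_product.1 hsi).1⟩, (i, a)), rfl⟩
    · exact Or.inr ⟨(⟨j, hj⟩, a), rfl⟩
  have hout2 : ∀ z ∉ Set.range e, z ∉ Set.range e2 := fun z hz ⟨x, hx⟩ => hz ⟨_, hx⟩
  have hout3 : ∀ z ∉ Set.range e, z ∉ Set.range e3 := fun z hz ⟨x, hx⟩ => hz ⟨_, hx⟩
  have hext : ∀ x y : Perm α, (∀ s q, x (e2 (s, q)) = y (e2 (s, q))) →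
      (∀ j a, x (e3 (j, a)) = y (e3 (j, a))) → (∀ z ∉ Set.range e, x z = y z) → x = y := by
    intro x y h2 h3 h4
    refine perm_ext e (fun i a => ?_) h4
    rcases hcov (i, a) with ⟨q, hq⟩ | ⟨q, hq⟩
    · rw [← hq]; exact h2 _ _
    · rw [← hq]; exact h3 _ _
  have hcomm : ∀ (L : J → Perm (ZMod p × ZMod p)) (f : {j : I // j ∉ Js} → ZMod p),
      Commute (fib e2 L) (shift e3 f) := by
    intro L f
    refine hext _ _ (fun s q => ?_) (fun j a => ?_) fun z hz => ?_
    · rw [Perm.mul_apply, Perm.mul_apply, shift_out e3 _ (h32 s q), fib_apply,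
        shift_out e3 _ (h32 s _)]
    · rw [Perm.mul_apply, Perm.mul_apply, shift_apply, fib_out e2 _ (h23 j a),
        fib_out e2 _ (h23 j _), shift_apply]
    · rw [Perm.mul_apply, Perm.mul_apply, shift_out e3 _ (hout3 z hz), fib_out e2 _ (hout2 z hz),
        shift_out e3 _ (hout3 z hz)]
  set R := base e2 ⊔ base e3 with hR
  refine ⟨R, sup_le (fun x hx => ?_) (fun x hx => ?_), fun c hc => ?_, ?_⟩
  · -- the big pieces lie in the lift
    obtain ⟨f, rfl⟩ := (mem_base e2).1 hx
    let f1 : K → ZMod p := fun s => if h : s ∈ J then (f ⟨s, h⟩).1 else 0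
    let f2 : K × ZMod p → ZMod p := fun q => if h : q.1 ∈ J then (f ⟨q.1, h⟩).2 else 0
    refine ⟨Function.extend e' f2 0, shift e' f1, shift_mem_lift f1, ?_⟩
    refine hext _ _ (fun s q => ?_) (fun j a => ?_) fun z hz => ?_
    · rw [shift_apply, he2, he2, Perm.mul_apply, blk_apply, shift_apply, shift_apply,
        e'.injective.extend_apply]
      simp [f1, f2, s.2]
    · have hfix : shift e' f1 (j : I) = j := by
        by_cases hjr : (j : I) ∈ Set.range e'
        · obtain ⟨⟨s, i⟩, hsi⟩ := hjr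
          have hs : s ∉ J := fun hs => j.2 (hsi ▸ (hmemJs s i).2 hs)
          rw [← hsi, shift_apply]
          simp [f1, hs]
        · exact shift_out e' _ hjr
      have hF : Function.extend e' f2 0 (j : I) = 0 := by
        by_cases hjr : (j : I) ∈ Set.range e'
        · obtain ⟨⟨s, i⟩, hsi⟩ := hjr
          have hs : s ∉ J := fun hs => j.2 (hsi ▸ (hmemJs s i).2 hs)
          rw [← hsi, e'.injective.extend_apply]
          simp [f2, hs]
        · rw [Function.extend_apply' _ _ _ hjr]
          rfl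
      rw [shift_out e2 _ (h23 j a), he3, Perm.mul_apply, blk_apply, hfix, shift_apply, hF, zero_add]
    · rw [shift_out e2 _ (hout2 z hz), Perm.mul_apply, blk_out e _ hz, shift_out e _ hz]
  · -- the small pieces lie in the lift
    obtain ⟨f, rfl⟩ := (mem_base e3).1 hx
    let f' : I → ZMod p := fun j => if h : j ∈ Js then 0 else f ⟨j, h⟩
    convert shift_mem_lift (e := e) (W' := lift e' W'') f'
    refine hext _ _ (fun s q => ?_) (fun j a => ?_) fun z hz => ?_
    · rw [shift_out e3 _ (h32 s q), he2, shift_apply]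
      simp [f', (hmemJs s q.1).2 s.2]
    · rw [shift_apply, he3, he3, shift_apply]
      simp [f', j.2]
    · rw [shift_out e3 _ (hout3 z hz), shift_out e _ hz]
  · -- the centralizer
    have hc2 : ∀ s, ∃ a, ∀ q, c (e2 (s, q)) = e2 (s, a + q) := fun s =>
      exists_translation_of_commute e2 fun q =>
        (hc _ (Subgroup.mem_sup_left (shift_mem_base e2 _))).symm
    have hc3 : ∀ j, ∃ a, ∀ q, c (e3 (j, q)) = e3 (j, a + q) := fun j =>
      exists_translation_of_commute e3 fun q =>
        (hc _ (Subgroup.mem_sup_right (shift_mem_base e3 _))).symm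
    choose a2 ha2 using hc2
    choose a3 ha3 using hc3
    have : c = shift e2 a2 * shift e3 a3 := by
      refine hext _ _ (fun s q => ?_) (fun j a => ?_) fun z hz => ?_
      · rw [ha2, Perm.mul_apply, shift_out e3 _ (h32 s q), shift_apply]
      · rw [ha3, Perm.mul_apply, shift_apply, shift_out e2 _ (h23 j _)]
      · rw [Perm.mul_apply, shift_out e3 _ (hout3 z hz), shift_out e2 _ (hout2 z hz)]
        refine apply_eq_of_notMem_range e hr (fun y => ?_) hz
        rcases hcov y with ⟨⟨s, q⟩, hq⟩ | ⟨⟨j, a⟩, hq⟩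
        · exact ⟨(e' ((s : K), (q - a2 s).1), (q - a2 s).2), by
            rw [← he2, ha2, add_sub_cancel, hq]⟩
        · exact ⟨((j : I), a - a3 j), by rw [← he3, ha3, add_sub_cancel, hq]⟩
    rw [this]
    exact mul_mem (Subgroup.mem_sup_left (shift_mem_base e2 _))
      (Subgroup.mem_sup_right (shift_mem_base e3 _))
  · -- generation
    have hfibN : ∀ L : (ZMod p × ZMod p) ≃+ (ZMod p × ZMod p),
        fib e2 (fun _ => L.toEquiv) ∈ Subgroup.normalizer (R : Set (Perm α)) := by
      intro L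
      refine mem_normalizer_of_conj_mem fun x hx => ?_
      have : R ≤ R.comap (MulAut.conj (fib e2 (fun _ => L.toEquiv))).toMonoidHom := by
        refine sup_le (fun y hy => ?_) (fun y hy => ?_)
        · obtain ⟨f, rfl⟩ := (mem_base e2).1 hy
          show fib e2 (fun _ => L.toEquiv) * shift e2 f * (fib e2 (fun _ => L.toEquiv))⁻¹ ∈ R
          rw [fib_mul_shift e2 (fun _ => L) f, mul_inv_cancel_right]
          exact Subgroup.mem_sup_left (shift_mem_base e2 _)
        · obtain ⟨f, rfl⟩ := (mem_base e3).1 hy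
          show fib e2 (fun _ => L.toEquiv) * shift e3 f * (fib e2 (fun _ => L.toEquiv))⁻¹ ∈ R
          rw [(hcomm _ f).eq, mul_inv_cancel_right]
          exact Subgroup.mem_sup_right (shift_mem_base e3 f)
      exact this hx
    have hpowT : ∀ T : ZMod p → (ZMod p × ZMod p) ≃+ (ZMod p × ZMod p), (∀ q, T 0 q = q) →
        (∀ a b q, T a (T b q) = T (a + b) q) → ∀ a, fib e2 (fun _ => (T a).toEquiv) ∈ pGen p R := by
      intro T h0 hT a
      have hn : ∀ n : ℕ, fib e2 (fun _ => (T a).toEquiv) ^ n =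
          fib e2 (fun _ => (T ((n : ZMod p) * a)).toEquiv) := by
        intro n
        induction n with
        | zero =>
          refine perm_ext e2 (fun s q => ?_) fun z hz => ?_
          · rw [pow_zero, fib_apply]
            simp [h0]
          · rw [pow_zero, fib_out e2 _ hz]
            rfl
        | succ n ih =>
          rw [pow_succ, ih, fib_mul]
          congr 1
          funext s
          refine Equiv.ext fun q => ?_
          show T _ (T a q) = T _ q
          rw [hT]
          congr 2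
          push_cast
          ring
      have hp' : fib e2 (fun _ => (T a).toEquiv) ^ p = 1 := by
        rw [hn, ZMod.natCast_self, zero_mul]
        refine perm_ext e2 (fun s q => ?_) fun z hz => ?_
        · rw [fib_apply]
          simp [h0]
        · rw [fib_out e2 _ hz]
          rfl
      exact mem_pGen_of (Perm.mem_alternatingGroup.2 (sign_pow_prime_eq_one hp2 hp'))
        (hfibN (T a)) hp'
    have hlow := hpowT lowerT (fun q => by simp [lowerT]) (fun a b q => by
      simp [lowerT]; ring)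
    have hup := hpowT upperT (fun q => by simp [upperT]) (fun a b q => by
      simp [upperT]; ring)
    have heq : scal e u * blk e (scal e' v) =
        fib e2 (fun _ => (lowerT ((ζ⁻¹ : (ZMod p)ˣ) : ZMod p)).toEquiv) *
        fib e2 (fun _ => (upperT (-((ζ⁻¹)⁻¹ : (ZMod p)ˣ) : ZMod p)).toEquiv) *
        fib e2 (fun _ => (lowerT ((ζ⁻¹ : (ZMod p)ˣ) : ZMod p)).toEquiv) *
        fib e2 (fun _ => (lowerT (-1 : ZMod p)).toEquiv) *
        fib e2 (fun _ => (upperT (1 : ZMod p)).toEquiv) *
        fib e2 (fun _ => (lowerT (-1 : ZMod p)).toEquiv) := by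
      refine hext _ _ (fun s q => ?_) (fun j a => ?_) fun z hz => ?_
      · simp only [Perm.mul_apply, fib_apply]
        show _ = e2 (s, lowerT _ (upperT _ (lowerT _ (lowerT _ (upperT _ (lowerT _ q))))))
        obtain ⟨q1, q2⟩ := q
        rw [transvections_apply (ζ⁻¹) q1 q2, he2, he2, blk_apply, scal_apply, scal_apply]
        have h1 : v (s : K) = ζ⁻¹ := if_pos s.2
        have h2 : ∀ i, u (e' ((s : K), i)) = ζ := fun i => if_pos ((hmemJs _ _).2 s.2)
        rw [h1, h2, inv_inv]
      · simp only [Perm.mul_apply, fib_out e2 _ (h23 j a)]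
        have hfix : scal e' v (j : I) = j := by
          by_cases hjr : (j : I) ∈ Set.range e'
          · obtain ⟨⟨s, i⟩, hsi⟩ := hjr
            have hs : s ∉ J := fun hs => j.2 (hsi ▸ (hmemJs s i).2 hs)
            rw [← hsi, scal_apply]
            simp [hv, hs]
          · exact scal_out e' _ hjr
        rw [he3, blk_apply, hfix, scal_apply]
        simp [hu, j.2]
      · simp only [Perm.mul_apply, fib_out e2 _ (hout2 z hz), blk_out e _ hz, scal_out e _ hz]
    rw [heq]
    exact mul_mem (mul_mem (mul_mem (mul_mem (mul_mem (hlow _) (hup _)) (hlow _)) (hlow _)) (hup _))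
      (hlow _)

end Super

end Cfsg.Agent.FusionAlt
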