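import Cfsg.Agent.FusionAlt.Closed
import Cfsg.Agent.FusionAlt.SuperBlock
import Cfsg.Agent.FusionCrit.CentricGen
import Cfsg.Agent.Known.SylowTwoSym

/-!
The fusion system of an alternating group at a prime `p` with `p² ≤ n` and `n` congruent to 0 or 1
modulo `p` is simple.
-/

set_option autoImplicit false

open Cfsg Cfsg.FusionSystem

namespace Cfsg.Agent.FusionAlt

open Equiv

variable {p : ℕ} [hp : Fact p.Prime] {α : Type*} [Fintype α] [DecidableEq α]

/-- Transfer from the symmetric group: an element of `pGen p R` lies, inside the alternating group, in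
the subgroup generated by the `p`-elements of the normalizer of `R`. -/
lemma mem_closure_of_mem_pGen {R : Subgroup (Perm α)} {g : alternatingGroup α}
    (hg : (g : Perm α) ∈ pGen p R) :
    g ∈ Subgroup.closure {x : alternatingGroup α |
      x ∈ Subgroup.normalizer ((R.comap (alternatingGroup α).subtype : Subgroup (alternatingGroup α)) :
        Set (alternatingGroup α)) ∧ ∃ k : ℕ, orderOf x = p ^ k} := by
  set C := Subgroup.closure {x : alternatingGroup α |
      x ∈ Subgroup.normalizer ((R.comap (alternatingGroup α).subtype : Subgroup (alternatingGroup α)) :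
        Set (alternatingGroup α)) ∧ ∃ k : ℕ, orderOf x = p ^ k}
  have : pGen p R ≤ C.map (alternatingGroup α).subtype := by
    rw [pGen, Subgroup.closure_le]
    rintro x ⟨hxA, hxN, hxp⟩
    refine ⟨⟨x, hxA⟩, Subgroup.subset_closure ⟨?_, ?_⟩, rfl⟩
    · rw [Subgroup.mem_normalizer_iff]
      intro y
      exact Subgroup.mem_normalizer_iff.1 hxN (y : Perm α)
    · have h : orderOf (⟨x, hxA⟩ : alternatingGroup α) ∣ p := by
        rw [Subgroup.orderOf_mk, orderOf_dvd_iff_pow_eq_one, hxp]
      rcases (Nat.dvd_prime hp.out).1 h with h1 | h1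
      · exact ⟨0, by rw [h1, pow_zero]⟩
      · exact ⟨1, by rw [h1, pow_one]⟩
  obtain ⟨y, hy, hyg⟩ := this hg
  exact (Subtype.ext hyg : y = g) ▸ hy

/-- For odd `p`, the normalizer of the Sylow subgroup is generated as required. -/
lemma normalizer_le_closure {m : ℕ} (hp2 : p ≠ 2) (hpm : p ≤ m)
    (e : Fin m × ZMod p ↪ α) (hr : Fintype.card α ≤ p * m + 1)
    (e' : Fin (m / p) × ZMod p ↪ Fin m) (W'' : Sylow p (Perm (Fin (m / p))))
    (S : Sylow p (alternatingGroup α))
    (hS : ∀ x : alternatingGroup α, x ∈ (S : Subgroup (alternatingGroup α)) ↔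
      (x : Perm α) ∈ lift e (lift e' (W'' : Subgroup (Perm (Fin (m / p)))))) :
    Subgroup.normalizer ((S : Subgroup (alternatingGroup α)) : Set (alternatingGroup α)) ≤
      Subgroup.closure (FusionCrit.centricGoodSet S) := by
  classical
  set L := lift e (lift e' (W'' : Subgroup (Perm (Fin (m / p))))) with hL
  have hr' : Fintype.card α ≤ p * Fintype.card (Fin m) + 1 := by simpa using hr
  have hlt : Fintype.card α < p * (Fintype.card (Fin m) + 1) := by
    have := hp.out.two_le; rw [Nat.mul_add, mul_one]; omega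
  have hlt' : Fintype.card (Fin m) < p * (Fintype.card (Fin (m / p)) + 1) := by
    simpa using Nat.lt_mul_div_succ m hp.out.pos
  have hW' : IsPGroup p (lift e' (W'' : Subgroup (Perm (Fin (m / p))))) := isPGroup_lift e' W'' hlt'
  have hLp : IsPGroup p L := isPGroup_lift e (liftSylow e' W'' hlt') hlt
  have hLA : L ≤ alternatingGroup α := by
    intro x hx
    obtain ⟨k, hk⟩ := IsPGroup.iff_orderOf.1 hLp ⟨x, hx⟩
    rw [Subgroup.orderOf_mk] at hk
    refine Perm.mem_alternatingGroup.2 ?_
    rcases Int.units_eq_one_or (Perm.sign x) with hs | hs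
    · exact hs
    · have h1 : Perm.sign x ^ p ^ k = 1 := by rw [← map_pow, ← hk, pow_orderOf_eq_one, map_one]
      rw [hs, ((hp.out.odd_of_ne_two hp2).pow).neg_one_pow] at h1
      exact absurd h1 (by decide)
  have hSN : ∀ g : alternatingGroup α, (g : Perm α) ∈ Subgroup.normalizer (L : Set (Perm α)) →
      g ∈ Subgroup.normalizer ((S : Subgroup (alternatingGroup α)) : Set (alternatingGroup α)) := by
    intro g hg
    rw [Subgroup.mem_normalizer_iff]
    intro y
    rw [hS, hS]
    exact Subgroup.mem_normalizer_iff.1 hg (y : Perm α)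
  have hNS : ∀ g ∈ Subgroup.normalizer
      ((S : Subgroup (alternatingGroup α)) : Set (alternatingGroup α)),
      (g : Perm α) ∈ Subgroup.normalizer (L : Set (Perm α)) := by
    intro g hg
    refine mem_normalizer_of_conj_mem fun x hx => ?_
    exact (hS _).1 ((Subgroup.mem_normalizer_iff.1 hg ⟨x, hLA hx⟩).1 ((hS _).2 hx))
  have hgood : ∀ (R : Subgroup (Perm α)), R ≤ L →
      (∀ c : Perm α, (∀ r ∈ R, r * c = c * r) → c ∈ R) →
      ∀ g : alternatingGroup α, (g : Perm α) ∈ Subgroup.normalizer (L : Set (Perm α)) →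
        (g : Perm α) ∈ pGen p R → g ∈ FusionCrit.centricGoodSet S := by
    intro R hRL hRC g hgN hgR
    refine ⟨hSN g hgN, R.comap (alternatingGroup α).subtype, ?_, mem_closure_of_mem_pGen hgR⟩
    refine FusionCrit.isCentric_of_centralizer_le S (fun x hx => (hS x).2 (hRL hx)) fun c hc => ?_
    exact hRC _ fun r hr =>
      congrArg Subtype.val (hc (⟨r, hLA (hRL hr)⟩ : alternatingGroup α) hr)
  intro g hg
  have hgN := hNS g hg
  obtain ⟨u, σ, f, hguσf⟩ := exists_decomp e hr' (normalizer_lift_le e _ hgN)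
  have hne : Nonempty (Fin (m / p)) :=
    ⟨⟨0, Nat.div_pos hpm hp.out.pos⟩⟩
  obtain ⟨s₀⟩ := hne
  set J := (MulAction.orbit (W'' : Subgroup (Perm (Fin (m / p)))) s₀).toFinset with hJdef
  have hJ : ∀ τ ∈ (W'' : Subgroup (Perm (Fin (m / p)))), ∀ s ∈ J, τ s ∈ J := by
    intro τ hτ s hs
    rw [hJdef, Set.mem_toFinset] at hs ⊢
    exact MulAction.mem_orbit_of_mem_orbit (⟨τ, hτ⟩ : (W'' : Subgroup (Perm (Fin (m / p))))) hs
  obtain ⟨k, hk⟩ := W''.2.card_orbit s₀
  have hJc : J.card = p ^ k := by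
    rw [hJdef, ← Set.ncard_eq_toFinset_card', ← Nat.card_coe_set_eq, hk]
  obtain ⟨u₀, σ₀, hprod, hN₀, R, hRL, hRC, hR₀⟩ :=
    exists_torus_element e hp2 hr' e' _ J hJ hJc (∏ i, u i)
  let g₀ : alternatingGroup α := ⟨scal e u₀ * blk e σ₀, pGen_le_alternating hR₀⟩
  have hg₀ : g₀ ∈ FusionCrit.centricGoodSet S := hgood R hRL hRC g₀ hN₀ hR₀
  have hbaseC : ∀ c : Perm α, (∀ r ∈ base e, r * c = c * r) → c ∈ base e := by
    intro c hc
    obtain ⟨f', rfl⟩ := eq_shift_of_commute e hr' (c := c)
      fun f' => (hc _ (shift_mem_base e f')).symm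
    exact shift_mem_base e f'
  have hrest : ((g₀⁻¹ * g : alternatingGroup α) : Perm α) =
      scal e ((u₀⁻¹ * u) ∘ σ₀) * blk e (σ₀⁻¹ * σ) * shift e f := by
    show (scal e u₀ * blk e σ₀)⁻¹ * (g : Perm α) = _
    rw [hguσf, map_mul (blk e), map_inv, inv_mul_eq_iff_eq_mul]
    have h : blk e σ₀ * scal e ((u₀⁻¹ * u) ∘ σ₀) = scal e (u₀⁻¹ * u) * blk e σ₀ := by
      rw [blk_mul_scal]
      congr 2
      funext i
      simp
    simp only [mul_assoc]
    rw [← mul_assoc (blk e σ₀) (scal e _), h, mul_assoc, mul_inv_cancel_left, ← mul_assoc,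
      ← mul_assoc (scal e u₀), ← map_mul, mul_inv_cancel_left, mul_assoc]
  have hu1 : ∏ i, ((u₀⁻¹ * u) ∘ σ₀) i = 1 := by
    simp only [Function.comp_apply]
    rw [Equiv.prod_comp σ₀ (u₀⁻¹ * u)]
    simp only [Pi.mul_apply, Pi.inv_apply]
    rw [Finset.prod_mul_distrib, Finset.prod_inv_distrib, hprod, inv_mul_cancel]
  have hσA : σ₀⁻¹ * σ ∈ alternatingGroup (Fin m) := by
    have h := Perm.mem_alternatingGroup.1 (g₀⁻¹ * g).2
    rw [hrest, map_mul, map_mul, sign_scal, hu1, map_one, one_mul, sign_blk_odd e hp2,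
      sign_pow_prime_eq_one hp2 (shift_pow_prime e f), mul_one] at h
    exact Perm.mem_alternatingGroup.2 h
  have hpm' : p ≤ Fintype.card (Fin m) := by simpa using hpm
  have hrestK : ((g₀⁻¹ * g : alternatingGroup α) : Perm α) ∈ pGen p (base e) := by
    rw [hrest]
    exact mul_mem (mul_mem (scal_mem_pGen e hp2 hpm' hu1) (blk_mem_pGen e hp2 hpm' hσA))
      (shift_mem_pGen e hp2 f)
  have hrestN : g₀⁻¹ * g ∈ FusionCrit.centricGoodSet S :=
    hgood (base e) base_le_lift hbaseC _ (by
      rw [Subgroup.coe_mul, Subgroup.coe_inv]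
      exact mul_mem (inv_mem hN₀) hgN) hrestK
  have := mul_mem (Subgroup.subset_closure hg₀) (Subgroup.subset_closure hrestN)
  rwa [mul_inv_cancel_left] at this

theorem isSimple_alternating (n : ℕ) (hn : 6 ≤ n) (hnp : p ^ 2 ≤ n) (hb : n % p ≤ 1)
    (S : Sylow p (alternatingGroup (Fin n))) :
    (groupFusionSystem (S : Subgroup (alternatingGroup (Fin n)))).IsSimple p := by
  classical
  have h2 := hp.out.two_le
  set m := n / p with hm
  have hpm : p ≤ m := (Nat.le_div_iff_mul_le hp.out.pos).2 (by rw [← sq]; exact hnp)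
  have hm3 : 3 ≤ m := by
    rcases h2.eq_or_lt with h | h
    · subst h; omega
    · omega
  have hr1 : Fintype.card (Fin n) ≤ p * m + 1 := by
    have := Nat.div_add_mod n p
    simp only [Fintype.card_fin, hm]
    omega
  obtain ⟨e₀⟩ := exists_blocks p n
  obtain ⟨e'⟩ := exists_blocks p m
  obtain ⟨W''⟩ : Nonempty (Sylow p (Perm (Fin (m / p)))) := inferInstance
  have hlt' : Fintype.card (Fin m) < p * (Fintype.card (Fin (m / p)) + 1) := by
    simpa using Nat.lt_mul_div_succ m hp.out.pos
  set W' := liftSylow e' W'' hlt' with hW'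
  have hlt : Fintype.card (Fin n) < p * (Fintype.card (Fin m) + 1) := by
    simpa [hm] using Nat.lt_mul_div_succ n hp.out.pos
  obtain ⟨e, he⟩ := exists_eq_lift_inf e₀ W' hlt S
  have hS : ∀ x : alternatingGroup (Fin n), x ∈ (S : Subgroup (alternatingGroup (Fin n))) ↔
      (x : Perm (Fin n)) ∈ lift e (W' : Subgroup (Perm (Fin m))) := by
    intro x
    constructor
    · intro hx
      exact ((SetLike.ext_iff.1 he _).1 (Subgroup.mem_map_of_mem _ hx)).1
    · intro hx
      obtain ⟨y, hy, hyx⟩ := Subgroup.mem_map.1 ((SetLike.ext_iff.1 he (x : Perm (Fin n))).2 (Subgroup.mem_inf.2 ⟨hx, x.2⟩))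
      exact (Subtype.ext hyx : y = x) ▸ hy
  have hS1 : (S : Subgroup (alternatingGroup (Fin n))) ≠ ⊥ := by
    refine S.ne_bot_of_dvd_card ?_
    have hN : Nontrivial (Fin n) := Fin.nontrivial_iff_two_le.2 (by omega)
    refine (hp.out.dvd_mul.1 (?_ : p ∣ 2 * Nat.card (alternatingGroup (Fin n)))).elim (fun h => ?_) id
    · rw [Nat.card_eq_fintype_card, two_mul_card_alternatingGroup, Fintype.card_perm, Fintype.card_fin]
      exact Nat.dvd_factorial hp.out.pos (by nlinarith)
    · have h2' := (Nat.prime_dvd_prime_iff_eq hp.out Nat.prime_two).1 h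
      rw [h2', Nat.card_eq_fintype_card]
      have h4 : 2 * 2 ∣ 2 * Fintype.card (alternatingGroup (Fin n)) := by
        rw [two_mul_card_alternatingGroup, Fintype.card_perm, Fintype.card_fin]
        exact (by decide : 2 * 2 ∣ Nat.factorial 4).trans (Nat.factorial_dvd_factorial (by omega))
      exact Nat.dvd_of_mul_dvd_mul_left (by norm_num) h4
  refine FusionCrit.isSimple_of_centric_generation S hS1 (fun T hT => ?_) ?_
  · rcases eq_or_ne T ⊥ with h | h
    · exact Or.inl h
    refine Or.inr (le_antisymm hT.1 ?_)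
    set ι := (alternatingGroup (Fin n)).subtype
    have hle : lift e (W' : Subgroup (Perm (Fin m))) ⊓ alternatingGroup (Fin n) ≤ T.map ι := by
      refine lift_inf_le_of_closed e W' (by simpa using hlt) hm3 _ ?_ ?_ ?_
      · rw [← he]
        exact Subgroup.map_mono hT.1
      · rw [Ne, Subgroup.map_eq_bot_iff_of_injective _ (alternatingGroup (Fin n)).subtype_injective]
        exact h
      · rintro g hg _ ⟨t, ht, rfl⟩ hgt
        refine ⟨⟨g, hg⟩ * t * ⟨g, hg⟩⁻¹, FusionCrit.conj_mem_of_stronglyClosed S hT ht _ ?_, rfl⟩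
        exact (hS _).2 hgt.1
    intro x hx
    obtain ⟨t, ht, htx⟩ := hle ⟨(hS x).1 hx, x.2⟩
    exact (Subtype.ext htx : t = x) ▸ ht
  · by_cases hp2 : p = 2
    · subst hp2
      exact (Known.sylowSelfNormalizing_alternating_fin n hn S).trans fun s hs =>
        Subgroup.subset_closure (FusionCrit.self_subset_centricGoodSet S hs)
    · exact normalizer_le_closure hp2 hpm e hr1 e' W'' S hS

end Cfsg.Agent.FusionAlt
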