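import Cfsg.Agent.FusionAlt.Conj

/-!
Sylow subgroups of symmetric and alternating groups: shape and generation by elements of order `p`.
-/

set_option autoImplicit false

namespace Cfsg.Agent.FusionAlt

open Equiv
open scoped Pointwise

variable {p : ℕ} [hp : Fact p.Prime]

/-- Every Sylow subgroup of a symmetric group is conjugate to a lift. -/
lemma exists_eq_lift {I α : Type*} [Fintype I] [Fintype α] (e : I × ZMod p ↪ α)
    (W' : Sylow p (Perm I)) (hr : Fintype.card α < p * (Fintype.card I + 1))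
    (W : Sylow p (Perm α)) :
    ∃ e' : I × ZMod p ↪ α, (W : Subgroup (Perm α)) = lift e' (W' : Subgroup (Perm I)) := by
  obtain ⟨g, hg⟩ := MulAction.exists_smul_eq (Perm α) (liftSylow e W' hr) W
  refine ⟨e.trans g.toEmbedding, ?_⟩
  rw [← hg]
  ext x
  rw [Sylow.coe_subgroup_smul, Subgroup.mem_pointwise_smul_iff_inv_smul_mem, coe_liftSylow,
    mem_lift_trans_iff]
  simp [MulAut.smul_def]

/-- The translations and the lifts of the elements of order `p` of `W'` generate. -/
lemma lift_mem_closure {I α : Type*} (e : I × ZMod p ↪ α) (W' : Subgroup (Perm I))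
    (hW' : W' ≤ Subgroup.closure {σ | σ ∈ W' ∧ σ ^ p = 1}) {σ : Perm I} (hσ : σ ∈ W')
    {X : Set (Perm α)} (hX : ∀ τ ∈ W', τ ^ p = 1 → blk e τ ∈ X) :
    blk e σ ∈ Subgroup.closure X := by
  have : Subgroup.closure {σ | σ ∈ W' ∧ σ ^ p = 1} ≤ (Subgroup.closure X).comap (blk e) := by
    rw [Subgroup.closure_le]
    exact fun τ hτ => Subgroup.subset_closure (hX τ hτ.1 hτ.2)
  exact this (hW' hσ)

/-- Sylow subgroups of symmetric groups are generated by their elements of order `p`. -/
theorem sylow_le_closure_pow_prime : ∀ (n : ℕ) (W : Sylow p (Perm (Fin n))),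
    (W : Subgroup (Perm (Fin n))) ≤
      Subgroup.closure {x | x ∈ (W : Subgroup (Perm (Fin n))) ∧ x ^ p = 1} := by
  intro n
  induction n using Nat.strong_induction_on with
  | _ n ih =>
    intro W x hx
    rcases Nat.eq_zero_or_pos n with rfl | hn
    · rw [Subsingleton.elim x 1]
      exact one_mem _
    obtain ⟨e₀⟩ := exists_blocks p n
    have hr : Fintype.card (Fin n) < p * (Fintype.card (Fin (n / p)) + 1) := by
      simpa using Nat.lt_mul_div_succ n hp.out.pos
    obtain ⟨W'⟩ : Nonempty (Sylow p (Perm (Fin (n / p)))) := inferInstance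
    obtain ⟨e, he⟩ := exists_eq_lift e₀ W' hr W
    rw [he] at hx ⊢
    obtain ⟨f, σ, hσ, rfl⟩ := hx
    exact mul_mem (Subgroup.subset_closure ⟨shift_mem_lift f, shift_pow_prime e f⟩)
      (lift_mem_closure e _ (ih _ (Nat.div_lt_self hn hp.out.one_lt) W') hσ
        fun τ hτ hτp => ⟨blk_mem_lift hτ, by rw [← map_pow, hτp, map_one]⟩)

/-- The even part of a lift is generated by its elements of order `p`. -/
theorem lift_inf_alternating_le_closure {m : ℕ} {α : Type*} [Fintype α] [DecidableEq α]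
    (e : Fin m × ZMod p ↪ α) (W' : Sylow p (Perm (Fin m))) :
    lift e (W' : Subgroup (Perm (Fin m))) ⊓ alternatingGroup α ≤ Subgroup.closure
      {x | x ∈ lift e (W' : Subgroup (Perm (Fin m))) ⊓ alternatingGroup α ∧ x ^ p = 1} := by
  rintro _ ⟨⟨f, σ, hσ, rfl⟩, (hx' : _ ∈ alternatingGroup α)⟩
  have hx := Perm.mem_alternatingGroup.1 hx'
  rw [map_mul] at hx
  have hblk : ∀ τ : Perm (Fin m), τ ^ p = 1 → Perm.sign (blk e τ) = 1 := fun τ hτ => by
    by_cases hp2 : p = 2
    · subst hp2
      rw [sign_blk, ZMod.card, Int.units_sq]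
    · exact sign_pow_prime_eq_one hp2 (by rw [← map_pow, hτ, map_one])
  have hmem := lift_mem_closure e _ (sylow_le_closure_pow_prime m W') hσ
    (X := {x | x ∈ lift e (W' : Subgroup (Perm (Fin m))) ⊓ alternatingGroup α ∧ x ^ p = 1})
    fun τ hτ hτp => ⟨⟨blk_mem_lift hτ, Perm.mem_alternatingGroup.2 (hblk τ hτp)⟩,
      by rw [← map_pow, hτp, map_one]⟩
  have hs : Perm.sign (blk e σ) = 1 := by
    have : Subgroup.closure {x | x ∈ lift e (W' : Subgroup (Perm (Fin m))) ⊓ alternatingGroup α ∧
        x ^ p = 1} ≤ alternatingGroup α := (Subgroup.closure_le _).2 fun x hx => hx.1.2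
    exact Perm.mem_alternatingGroup.1 (this hmem)
  rw [hs, mul_one] at hx
  exact mul_mem (Subgroup.subset_closure
    ⟨⟨shift_mem_lift f, Perm.mem_alternatingGroup.2 hx⟩, shift_pow_prime e f⟩) hmem

/-- A Sylow subgroup of an alternating group is the even part of a lift. -/
theorem exists_eq_lift_inf {I α : Type*} [Fintype I] [Fintype α] [DecidableEq α]
    (e : I × ZMod p ↪ α) (W' : Sylow p (Perm I)) (hr : Fintype.card α < p * (Fintype.card I + 1))
    (S : Sylow p (alternatingGroup α)) :
    ∃ e' : I × ZMod p ↪ α, (S : Subgroup (alternatingGroup α)).map (alternatingGroup α).subtype =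
      lift e' (W' : Subgroup (Perm I)) ⊓ alternatingGroup α := by
  obtain ⟨W, hW⟩ := (S.2.map (alternatingGroup α).subtype).exists_le_sylow
  obtain ⟨e', he'⟩ := exists_eq_lift e W' hr W
  refine ⟨e', le_antisymm (le_inf (he' ▸ hW) ?_) ?_⟩
  · rintro _ ⟨y, -, rfl⟩
    exact y.2
  · have hpg : IsPGroup p ((W : Subgroup (Perm α)).comap (alternatingGroup α).subtype) :=
      W.2.comap_of_injective _ (alternatingGroup α).subtype_injective
    have := S.3 hpg (Subgroup.map_le_iff_le_comap.1 hW)
    rintro x ⟨hx, hxA⟩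
    refine ⟨⟨x, hxA⟩, ?_, rfl⟩
    rw [← this]
    show x ∈ (W : Subgroup (Perm α))
    rw [he']
    exact hx

/-- A Sylow 2-subgroup of a symmetric group of degree at least 2 contains a transposition. -/
lemma exists_swap_mem {I : Type*} [Fintype I] [DecidableEq I] (hI : 2 ≤ Fintype.card I)
    (W' : Sylow 2 (Perm I)) : ∃ a c : I, a ≠ c ∧ Equiv.swap a c ∈ (W' : Subgroup (Perm I)) := by
  obtain ⟨a, c, hac⟩ := Fintype.exists_pair_of_one_lt_card (α := I) (by omega)
  have hord : orderOf (Equiv.swap a c) = 2 :=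
    orderOf_eq_prime (by rw [pow_two, Equiv.swap_mul_self]) (swap_eq_refl_iff.not.2 hac)
  obtain ⟨Q, hQ⟩ := (IsPGroup.of_card (p := 2) (n := 1) (G := Subgroup.zpowers (Equiv.swap a c))
    (by rw [Nat.card_zpowers, hord, pow_one])).exists_le_sylow
  obtain ⟨g, hg⟩ := MulAction.exists_smul_eq (Perm I) Q W'
  refine ⟨g a, g c, g.injective.ne hac, ?_⟩
  rw [← hg, Sylow.coe_subgroup_smul, Subgroup.mem_pointwise_smul_iff_inv_smul_mem]
  convert hQ (Subgroup.mem_zpowers _) using 1
  rw [Equiv.swap_apply_apply]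
  simp [MulAut.smul_def, mul_assoc]

/-- A Sylow subgroup of a symmetric group of degree at least `p` is nontrivial. -/
lemma sylow_perm_ne_bot {I : Type*} [Fintype I] [DecidableEq I] (hI : p ≤ Fintype.card I)
    (W' : Sylow p (Perm I)) : (W' : Subgroup (Perm I)) ≠ ⊥ := by
  refine W'.ne_bot_of_dvd_card ?_
  rw [Nat.card_eq_fintype_card, Fintype.card_perm]
  exact Nat.dvd_factorial hp.out.pos hI

end Cfsg.Agent.FusionAlt
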