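import Cfsg.Agent.FusionAlt.Sylow

/-!
Fibrewise multiplications, the normalizer of the translation group, and the subgroup generated by the
elements of order `p` in a normalizer.
-/

set_option autoImplicit false

namespace Cfsg.Agent.FusionAlt

open Equiv

lemma mem_normalizer_of_conj_mem {G : Type*} [Group G] {H : Subgroup G} [Finite H] {g : G}
    (h : ∀ x ∈ H, g * x * g⁻¹ ∈ H) : g ∈ Subgroup.normalizer (H : Set G) := by
  have hb : Function.Surjective (fun x : H => (⟨g * x * g⁻¹, h x x.2⟩ : H)) :=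
    Finite.injective_iff_surjective.1 fun x y hxy => Subtype.ext <| by
      simpa using congrArg Subtype.val hxy
  rw [Subgroup.mem_normalizer_iff]
  refine fun x => ⟨h x, fun hx => ?_⟩
  obtain ⟨y, hy⟩ := hb ⟨_, hx⟩
  have hyx : g * (y : G) * g⁻¹ = g * x * g⁻¹ := congrArg Subtype.val hy
  exact mul_left_cancel (mul_right_cancel hyx) ▸ y.2

section PGen

variable {α : Type*} [Fintype α] [DecidableEq α]

/-- The subgroup generated by the even permutations of order `p` normalizing `H`. -/
def pGen (p : ℕ) (H : Subgroup (Perm α)) : Subgroup (Perm α) :=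
  Subgroup.closure {x | x ∈ alternatingGroup α ∧ x ∈ Subgroup.normalizer (H : Set (Perm α)) ∧ x ^ p = 1}

variable {p : ℕ} {H : Subgroup (Perm α)}

lemma mem_pGen_of {x : Perm α} (h1 : x ∈ alternatingGroup α)
    (h2 : x ∈ Subgroup.normalizer (H : Set (Perm α))) (h3 : x ^ p = 1) : x ∈ pGen p H :=
  Subgroup.subset_closure ⟨h1, h2, h3⟩

lemma pGen_le_alternating : pGen p H ≤ alternatingGroup α :=
  (Subgroup.closure_le _).2 fun _ hx => hx.1

lemma conj_mem_pGen {g k : Perm α} (hg : g ∈ Subgroup.normalizer (H : Set (Perm α)))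
    (hk : k ∈ pGen p H) : g * k * g⁻¹ ∈ pGen p H := by
  have : pGen p H ≤ (pGen p H).comap (MulAut.conj g).toMonoidHom := by
    rw [pGen, Subgroup.closure_le]
    rintro x ⟨h1, h2, h3⟩
    refine Subgroup.subset_closure ⟨alternatingGroup.normal.conj_mem x h1 g, ?_, ?_⟩
    · exact mul_mem (mul_mem hg h2) (inv_mem hg)
    · show (g * x * g⁻¹) ^ p = 1
      rw [conj_pow, h3, mul_one, mul_inv_cancel]
  exact this hk

end PGen

section AltGen

variable {I : Type*} [Fintype I] [DecidableEq I]

/-- The alternating group is generated by elements of order `p` when `p` is at most the degree. -/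
theorem alternating_le_closure_pow_prime (p : ℕ) [hp : Fact p.Prime] (hp2 : p ≠ 2)
    (hpI : p ≤ Fintype.card I) :
    alternatingGroup I ≤ Subgroup.closure {σ : Perm I | σ ^ p = 1} := by
  set C := Subgroup.closure {σ : Perm I | σ ^ p = 1} with hC
  have hn : ∀ g k : Perm I, k ∈ C → g * k * g⁻¹ ∈ C := by
    intro g k hk
    have : C ≤ C.comap (MulAut.conj g).toMonoidHom := by
      rw [hC, Subgroup.closure_le]
      exact fun x (hx : x ^ p = 1) => Subgroup.subset_closure
        (show (g * x * g⁻¹) ^ p = 1 by rw [conj_pow, hx, mul_one, mul_inv_cancel])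
    exact this hk
  obtain ⟨c, hc⟩ := exists_prime_orderOf_dvd_card (G := Perm I) p (by
    rw [Fintype.card_perm]; exact Nat.dvd_factorial hp.out.pos hpI)
  obtain ⟨a, ha⟩ : ∃ a, c a ≠ a := by
    by_contra h
    push Not at h
    rw [show c = 1 from Equiv.ext h, orderOf_one] at hc
    exact hp.out.ne_one hc.symm
  have hcp : c ^ p = 1 := orderOf_dvd_iff_pow_eq_one.1 hc.dvd
  have h2 : c (c a) ≠ a := by
    intro h
    apply ha
    obtain ⟨k, hk⟩ := hp.out.odd_of_ne_two hp2
    have h' : ∀ j, (c ^ (2 * j)) a = a := fun j => by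
      induction j with
      | zero => rfl
      | succ j ih => rw [Nat.mul_succ, pow_add, Perm.mul_apply, pow_two, Perm.mul_apply, h, ih]
    have := congrArg (fun x : Perm I => x a) hcp
    simp only [hk, pow_succ', Perm.mul_apply, h' k, Perm.one_apply] at this
    exact this
  have h3 : c * (Equiv.swap a (c a) * c⁻¹ * (Equiv.swap a (c a))⁻¹) ∈ C :=
    mul_mem (Subgroup.subset_closure hcp) (hn _ _ (inv_mem (Subgroup.subset_closure hcp)))
  have heq : c * (Equiv.swap a (c a) * c⁻¹ * (Equiv.swap a (c a))⁻¹) =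
      Equiv.swap (c a) (c (c a)) * Equiv.swap (c a) a := by
    rw [Equiv.swap_comm (c a) a, Equiv.swap_inv, ← mul_assoc, ← mul_assoc,
      ← Equiv.swap_apply_apply]
  rw [heq] at h3
  have hthree : (Equiv.swap (c a) (c (c a)) * Equiv.swap (c a) a).IsThreeCycle :=
    Perm.isThreeCycle_swap_mul_swap_same (c.injective.ne ha.symm) ha h2
  rw [← Perm.closure_three_cycles_eq_alternating, Subgroup.closure_le]
  intro σ hσ
  obtain ⟨g, rfl⟩ := isConj_iff.1 (Perm.isConj_iff_cycleType_eq.2 (hthree.cycleType.trans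
    (Perm.IsThreeCycle.cycleType hσ).symm))
  exact hn g _ h3

end AltGen

section Scal

variable {p : ℕ} [hp : Fact p.Prime] {I α : Type*} (e : I × ZMod p ↪ α)

/-- Multiplication by a unit, as a permutation. -/
def mulPerm : (ZMod p)ˣ →* Perm (ZMod p) := MulAction.toPermHom (ZMod p)ˣ (ZMod p)

/-- Fibrewise multiplication by units. -/
noncomputable def scal : (I → (ZMod p)ˣ) →* Perm α :=
  (fibHom e).comp
    { toFun := fun u i => mulPerm (u i)
      map_one' := funext fun _ => map_one mulPerm
      map_mul' := fun u v => funext fun i => map_mul mulPerm (u i) (v i) }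

@[simp] lemma scal_apply (u : I → (ZMod p)ˣ) (i : I) (a : ZMod p) :
    scal e u (e (i, a)) = e (i, (u i : ZMod p) * a) := by
  simp [scal, mulPerm, Units.smul_def]

lemma scal_out (u : I → (ZMod p)ˣ) {z : α} (hz : z ∉ Set.range e) : scal e u z = z :=
  fib_out e _ hz

lemma scal_mul_shift (u : I → (ZMod p)ˣ) (f : I → ZMod p) :
    scal e u * shift e f = shift e (fun i => (u i : ZMod p) * f i) * scal e u :=
  perm_ext e (fun i a => by simp [mul_add]) fun z hz => by simp [scal_out e _ hz, shift_out e _ hz]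

lemma blk_mul_scal (σ : Perm I) (u : I → (ZMod p)ˣ) :
    blk e σ * scal e u = scal e (u ∘ σ.symm) * blk e σ :=
  perm_ext e (fun i a => by simp) fun z hz => by simp [scal_out e _ hz, blk_out e _ hz]

/-- The sign of a multiplication. -/
def eps : (ZMod p)ˣ →* ℤˣ := Perm.sign.comp mulPerm

variable [Fintype I] [DecidableEq I] [Fintype α] [DecidableEq α]

lemma sign_scal (u : I → (ZMod p)ˣ) : Perm.sign (scal e u) = eps (∏ i, u i) := by
  rw [map_prod]
  exact sign_fib e _

lemma sign_blk_odd (hp2 : p ≠ 2) (σ : Perm I) : Perm.sign (blk e σ) = Perm.sign σ := by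
  rw [sign_blk, ZMod.card]
  obtain ⟨k, hk⟩ := hp.out.odd_of_ne_two hp2
  rw [hk, pow_succ, pow_mul, Int.units_sq, one_pow, one_mul]

omit [Fintype I] [DecidableEq I] [DecidableEq α] in
lemma scal_mem_normalizer (u : I → (ZMod p)ˣ) :
    scal e u ∈ Subgroup.normalizer (base e : Set (Perm α)) := by
  refine mem_normalizer_of_conj_mem fun x hx => ?_
  obtain ⟨f, rfl⟩ := (mem_base e).1 hx
  rw [scal_mul_shift, mul_inv_cancel_right]
  exact shift_mem_base e _

omit [Fintype I] [DecidableEq I] [DecidableEq α] in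
lemma blk_mem_normalizer (σ : Perm I) :
    blk e σ ∈ Subgroup.normalizer (base e : Set (Perm α)) := by
  refine mem_normalizer_of_conj_mem fun x hx => ?_
  obtain ⟨f, rfl⟩ := (mem_base e).1 hx
  rw [blk_mul_shift, mul_inv_cancel_right]
  exact shift_mem_base e _

omit [Fintype I] [DecidableEq I] in
lemma shift_mem_pGen (hp2 : p ≠ 2) (f : I → ZMod p) : shift e f ∈ pGen p (base e) :=
  mem_pGen_of (Perm.mem_alternatingGroup.2 (sign_pow_prime_eq_one hp2 (shift_pow_prime e f)))
    (Subgroup.le_normalizer (shift_mem_base e f)) (shift_pow_prime e f)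

lemma blk_mem_pGen (hp2 : p ≠ 2) (hpI : p ≤ Fintype.card I) {σ : Perm I}
    (hσ : σ ∈ alternatingGroup I) : blk e σ ∈ pGen p (base e) := by
  have : Subgroup.closure {σ : Perm I | σ ^ p = 1} ≤ (pGen p (base e)).comap (blk e) := by
    rw [Subgroup.closure_le]
    intro τ (hτ : τ ^ p = 1)
    have hbp : blk e τ ^ p = 1 := by rw [← map_pow, hτ, map_one]
    exact mem_pGen_of (Perm.mem_alternatingGroup.2 (sign_pow_prime_eq_one hp2 hbp))
      (blk_mem_normalizer e τ) hbp
  exact this (alternating_le_closure_pow_prime p hp2 hpI hσ)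

lemma scal_mem_pGen (hp2 : p ≠ 2) (hpI : p ≤ Fintype.card I) {u : I → (ZMod p)ˣ}
    (hu : ∏ i, u i = 1) : scal e u ∈ pGen p (base e) := by
  have h3 : 3 ≤ p := by have := hp.out.two_le; omega
  obtain ⟨j₀⟩ : Nonempty I := Fintype.card_pos_iff.1 (by omega)
  have key : ∀ j (w : (ZMod p)ˣ),
      scal e (Pi.mulSingle j w * (Pi.mulSingle j₀ w)⁻¹) ∈ pGen p (base e) := by
    intro j w
    rcases eq_or_ne j j₀ with rfl | hj
    · rw [mul_inv_cancel, map_one]
      exact one_mem _
    obtain ⟨k, -, hk⟩ := Finset.exists_mem_notMem_of_card_lt_card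
      (s := ({j₀, j} : Finset I)) (t := Finset.univ)
      (by rw [Finset.card_pair hj.symm, Finset.card_univ]; omega)
    simp only [Finset.mem_insert, Finset.mem_singleton, not_or] at hk
    set σ := Equiv.swap j₀ j * Equiv.swap j₀ k with hσ
    have hσA : σ ∈ alternatingGroup I := by
      rw [Perm.mem_alternatingGroup, hσ, map_mul, Perm.sign_swap hj.symm,
        Perm.sign_swap (Ne.symm hk.1)]
      rfl
    have hσj : σ j = j₀ := by
      rw [hσ, Perm.mul_apply, Equiv.swap_apply_of_ne_of_ne hj (Ne.symm hk.2),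
        Equiv.swap_apply_right]
    have h1 := mul_mem (conj_mem_pGen (scal_mem_normalizer e (Pi.mulSingle j w))
      (blk_mem_pGen e hp2 hpI hσA)) (inv_mem (blk_mem_pGen e hp2 hpI hσA))
    convert h1 using 1
    have h2 : blk e σ * scal e (Pi.mulSingle j w)⁻¹ * (blk e σ)⁻¹ =
        scal e ((Pi.mulSingle j w)⁻¹ ∘ σ.symm) := by
      rw [blk_mul_scal, mul_inv_cancel_right]
    rw [mul_assoc (scal e (Pi.mulSingle j w) * blk e σ), ← map_inv (scal e), mul_assoc,
      ← mul_assoc (blk e σ), h2, ← map_mul]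
    congr 2
    funext i
    simp only [Pi.inv_apply, Function.comp_apply]
    congr 1
    rw [Pi.mulSingle_apply, Pi.mulSingle_apply]
    refine if_congr ?_ rfl rfl
    rw [Equiv.symm_apply_eq, hσj]
  have : u = ∏ j, (Pi.mulSingle j (u j) * (Pi.mulSingle j₀ (u j))⁻¹) := by
    rw [Finset.prod_mul_distrib, Finset.univ_prod_mulSingle, Finset.prod_inv_distrib]
    convert (mul_one u).symm using 2
    funext i
    rcases eq_or_ne i j₀ with rfl | hi <;> simp [Finset.prod_apply, *]
  rw [this]
  refine Finset.prod_induction _ (fun v => scal e v ∈ pGen p (base e)) (fun a b ha hb => ?_) ?_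
    fun j _ => key j _
  · rw [map_mul]; exact mul_mem ha hb
  · rw [map_one]; exact one_mem _

end Scal

end Cfsg.Agent.FusionAlt
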