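import Cfsg.Agent.FusionAlt.Blocks

/-!
Sylow subgroups of symmetric groups as iterated wreath products: if `W'` is a Sylow subgroup of the
permutations of the blocks, translations together with the lift of `W'` form a Sylow subgroup.
-/

set_option autoImplicit false

namespace Cfsg.Agent.FusionAlt

open Equiv

section Lift

variable {I A α : Type*} [AddCommGroup A] (e : I × A ↪ α) (W' : Subgroup (Perm I))

/-- Translations times the lift of `W'`. -/
noncomputable def lift : Subgroup (Perm α) where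
  carrier := {x | ∃ f : I → A, ∃ σ ∈ W', x = shift e f * blk e σ}
  one_mem' := ⟨0, 1, one_mem _, by simp⟩
  mul_mem' := by
    rintro _ _ ⟨f, σ, hσ, rfl⟩ ⟨f', σ', hσ', rfl⟩
    refine ⟨f + f' ∘ σ.symm, σ * σ', mul_mem hσ hσ', ?_⟩
    rw [shift_add, map_mul, mul_assoc (shift e f), ← mul_assoc (blk e σ), blk_mul_shift]
    simp only [mul_assoc]
  inv_mem' := by
    rintro _ ⟨f, σ, hσ, rfl⟩
    refine ⟨(-f) ∘ σ, σ⁻¹, inv_mem hσ, ?_⟩
    rw [mul_inv_rev, ← map_inv, ← shift_neg, blk_mul_shift]
    rfl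

variable {e W'}

lemma mem_lift {x : Perm α} :
    x ∈ lift e W' ↔ ∃ f : I → A, ∃ σ ∈ W', x = shift e f * blk e σ := Iff.rfl

lemma shift_mem_lift (f : I → A) : shift e f ∈ lift e W' := ⟨f, 1, one_mem _, by simp⟩

lemma blk_mem_lift {σ : Perm I} (hσ : σ ∈ W') : blk e σ ∈ lift e W' := ⟨0, σ, hσ, by simp⟩

lemma base_le_lift : base e ≤ lift e W' := fun x hx => by
  obtain ⟨f, rfl⟩ := (mem_base e).1 hx
  exact shift_mem_lift f

lemma mem_lift_trans_iff (g : Perm α) {x : Perm α} :
    x ∈ lift (e.trans g.toEmbedding) W' ↔ g⁻¹ * x * g ∈ lift e W' := by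
  constructor
  · rintro ⟨f, σ, hσ, rfl⟩
    refine ⟨f, σ, hσ, ?_⟩
    rw [shift, ← conj_fib_blk e g]
    simp only [shift]
    group
  · rintro ⟨f, σ, hσ, hx⟩
    refine ⟨f, σ, hσ, ?_⟩
    rw [shift, ← conj_fib_blk e g, ← shift, ← hx]
    group

lemma card_lift : Nat.card (lift e W') = Nat.card (I → A) * Nat.card W' := by
  rw [← Nat.card_prod]
  refine (Nat.card_congr (Equiv.ofBijective
    (fun y : (I → A) × W' => (⟨shift e y.1 * blk e y.2, y.1, y.2, y.2.2, rfl⟩ : lift e W'))
    ⟨fun y y' h => ?_, ?_⟩)).symm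
  · obtain ⟨h1, h2⟩ := shift_blk_inj e (congrArg Subtype.val h)
    exact Prod.ext h1 (Subtype.ext h2)
  · rintro ⟨_, f, σ, hσ, rfl⟩
    exact ⟨⟨f, σ, hσ⟩, rfl⟩

end Lift

section Sylow

variable {p : ℕ} [Fact p.Prime] {I α : Type*} [Fintype I] [Fintype α]

omit [Fintype α] in
lemma padicValNat_card_sylow [DecidableEq I] (W' : Sylow p (Perm I)) :
    Nat.card W' = p ^ padicValNat p (Fintype.card I).factorial := by
  rw [W'.card_eq_multiplicity, Nat.card_eq_fintype_card, Fintype.card_perm,
    Nat.factorization_def _ Fact.out]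

lemma card_lift_sylow (e : I × ZMod p ↪ α) (W' : Sylow p (Perm I))
    (hr : Fintype.card α < p * (Fintype.card I + 1)) :
    Nat.card (lift e (W' : Subgroup (Perm I))) = p ^ (Nat.card (Perm α)).factorization p := by
  classical
  rw [card_lift, padicValNat_card_sylow, Nat.card_fun, Nat.card_zmod, Nat.card_eq_fintype_card,
    ← pow_add, Nat.card_eq_fintype_card, Fintype.card_perm, Nat.factorization_def _ Fact.out]
  congr 1
  have hle := Fintype.card_le_of_embedding e
  rw [Fintype.card_prod, ZMod.card, mul_comm] at hle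
  rw [Nat.mul_add, mul_one] at hr
  obtain ⟨r, hr'⟩ := Nat.exists_eq_add_of_le hle
  rw [hr', padicValNat_factorial_mul_add _ (by omega), padicValNat_factorial_mul]
  ring

/-- The lift of a Sylow subgroup, as a Sylow subgroup. -/
noncomputable def liftSylow (e : I × ZMod p ↪ α) (W' : Sylow p (Perm I))
    (hr : Fintype.card α < p * (Fintype.card I + 1)) : Sylow p (Perm α) :=
  Sylow.ofCard (lift e (W' : Subgroup (Perm I))) (card_lift_sylow e W' hr)

lemma coe_liftSylow (e : I × ZMod p ↪ α) (W' : Sylow p (Perm I))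
    (hr : Fintype.card α < p * (Fintype.card I + 1)) :
    (liftSylow e W' hr : Subgroup (Perm α)) = lift e (W' : Subgroup (Perm I)) := rfl

lemma isPGroup_lift (e : I × ZMod p ↪ α) (W' : Sylow p (Perm I))
    (hr : Fintype.card α < p * (Fintype.card I + 1)) :
    IsPGroup p (lift e (W' : Subgroup (Perm I))) :=
  IsPGroup.of_card (card_lift_sylow e W' hr)

lemma exists_blocks (p n : ℕ) [NeZero p] :
    Nonempty (Fin (n / p) × ZMod p ↪ Fin n) := by
  refine Function.Embedding.nonempty_of_card_le ?_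
  simp only [Fintype.card_prod, Fintype.card_fin, ZMod.card]
  exact Nat.div_mul_le_self n p

end Sylow

end Cfsg.Agent.FusionAlt
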